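import Mathlib

/-! Finite computations on the involutions of `Alt(6)`, made on permutations of six points. -/

set_option autoImplicit false
set_option maxRecDepth 100000

namespace Cfsg.Agent.RootSub.AltSix

open Equiv

/-- The double transposition `(a b)(c d)`. -/
def dbl (a b c d : Fin 6) : Equiv.Perm (Fin 6) := Equiv.swap a b * Equiv.swap c d

/-- The 45 double transpositions, as quadruples. -/
def quads : List (Fin 6 × Fin 6 × Fin 6 × Fin 6) :=
  (List.finRange 6).flatMap fun a => (List.finRange 6).flatMap fun b =>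
    (List.finRange 6).flatMap fun c => (List.finRange 6).filterMap fun d =>
      if a < b ∧ a < c ∧ c < d ∧ b ≠ c ∧ b ≠ d then some (a, b, c, d) else none

/-- The 45 involutions of `Alt(6)`. -/
def els : List (Equiv.Perm (Fin 6)) := quads.map fun q => dbl q.1 q.2.1 q.2.2.1 q.2.2.2

theorem cover : ∀ g : Equiv.Perm (Fin 6), g * g = 1 → Equiv.Perm.sign g = 1 → g = 1 ∨ g ∈ els := by
  decide +kernel

theorem els_spec : ∀ g ∈ els, g * g = 1 ∧ g ≠ 1 ∧ Equiv.Perm.sign g = 1 := by
  decide +kernel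

theorem pairs : ∀ d ∈ els, ∀ e ∈ els,
    d * e = e * d ∨ (d * e) ^ 3 = 1 ∨ (d * e) ^ 5 = 1 ∨ ((d * e) ^ 4 = 1 ∧ (d * e) ^ 2 ≠ 1) := by
  decide +kernel

theorem conj_base : ∀ e ∈ els, ∃ x ∈ els, ∃ y ∈ els,
    e = (x * y) * dbl 0 1 2 3 * (x * y)⁻¹ := by
  decide +kernel

end Cfsg.Agent.RootSub.AltSix
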