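import Cfsg.Agent.RootSub.Config

/-! Lines and rank one pairs in non-degenerate configurations. -/

set_option autoImplicit false

namespace Cfsg.Agent.RootSub

open Cfsg
open scoped commutatorElement

variable {G : Type*} [Group G] {S : Set (Subgroup G)}

namespace Pair

variable {A B : Subgroup G}

theorem not_nilpotent (h : IsRankOnePair A B) {R : Subgroup G} (hA : A ≤ R) (hB : B ≤ R) :
    ¬ Group.IsNilpotent ↥R := by
  intro hR
  have hle : A ⊔ B ≤ R := sup_le hA hB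
  have hn : Group.IsNilpotent ↥(A ⊔ B) := Group.nilpotent_of_mulEquiv
    (Subgroup.subgroupOfEquivOfLe hle)
  set X := A ⊔ B with hX
  have hall : ∀ m, ∀ z : ↥X, z ∈ Subgroup.upperCentralSeries ↥X m →
      ∀ x ∈ X, (z : G) * x = x * z := by
    intro m
    induction m with
    | zero =>
      intro z hz x _
      rw [Subgroup.upperCentralSeries_zero, Subgroup.mem_bot] at hz
      simp [hz]
    | succ m ih =>
      intro z hz x hx
      refine central_of_commutator_central h z.2 (fun u hu v hv => ?_) x hx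
      exact ih _ ((Subgroup.mem_upperCentralSeries_succ_iff).1 hz ⟨u, hu⟩) v hv
  obtain ⟨n, hn⟩ := hn.nilpotent'
  obtain ⟨a, ha, ha1⟩ := exists_ne_one (ne_bot_left h)
  obtain ⟨b, hb, hb1⟩ := exists_ne_one (ne_bot_right h)
  exact not_commute h ha ha1 hb hb1 (hall n ⟨a, Subgroup.mem_sup_left ha⟩
    (hn ▸ Subgroup.mem_top _) b (Subgroup.mem_sup_right hb))

end Pair

theorem linePartners_symm {A B : Subgroup G} (hA : A ∈ S) (h : B ∈ linePartners S A) :
    A ∈ linePartners S B := by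
  obtain ⟨⟨_, hne, hc⟩, hp⟩ := h
  exact ⟨⟨hA, hne.symm, by rwa [Subgroup.commutator_comm]⟩, by rwa [sup_comm]⟩

/-- No member of a line commutes with a rank one partner of `A`. -/
theorem line_no_commute (hS : IsRootSubgroupSet S) {A D E : Subgroup G} (hA : A ∈ S) (hD : D ∈ S)
    (hE : E ∈ S) (hr : IsRankOnePair A D) (hAE : ⁅A, E⁆ = ⊥)
    (hcov : ∀ n ∈ A ⊔ E, n ≠ 1 → ∃ M ∈ S, M ≤ A ⊔ E ∧ n ∈ M) : ⁅E, D⁆ ≠ ⊥ := by
  intro hED
  obtain ⟨a, ha, ha1⟩ := exists_ne_one_of_mem hS hA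
  obtain ⟨e, he, he1⟩ := exists_ne_one_of_mem hS hE
  have heD := commutator_eq_bot_iff_forall.1 hED e he
  have heA : ∀ x ∈ A, e * x = x * e := fun x hx =>
    (commutator_eq_bot_iff_forall.1 hAE x hx e he).symm
  by_cases h1 : e * a = 1
  · obtain ⟨d, hd, hd1⟩ := exists_ne_one_of_mem hS hD
    refine Pair.not_commute hr (a := e) ?_ he1 hd hd1 (heD d hd)
    rw [eq_inv_of_mul_eq_one_left h1]; exact inv_mem ha
  · obtain ⟨M, hM, -, hm⟩ := hcov (e * a)
      (mul_mem (Subgroup.mem_sup_right he) (Subgroup.mem_sup_left ha)) h1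
    exact he1 (eq_of_centralizer_mul_mem hS hA hD hM hr heA heD ha ha1 hm).2

/-- A line through two members contains a member not forming a rank one pair with `D`. -/
theorem exists_not_rankOne (hS : IsRootSubgroupSet S) {A C D : Subgroup G} (hA : A ∈ S)
    (hD : D ∈ S) (hAC : ⁅A, C⁆ = ⊥) (hdisj : A ⊓ C = ⊥) (hrA : IsRankOnePair A D)
    (hrC : IsRankOnePair C D)
    (hcov : ∀ n ∈ A ⊔ C, n ≠ 1 → ∃ M ∈ S, M ≤ A ⊔ C ∧ n ∈ M) :
    ∃ M ∈ S, M ≤ A ⊔ C ∧ ¬ IsRankOnePair M D := by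
  by_contra hall
  push Not at hall
  obtain ⟨d, hd, hd1⟩ := exists_ne_one_of_mem hS hD
  obtain ⟨x, hx, hx1, hxe⟩ := hrA.cond_right d hd hd1
  obtain ⟨y, hy, -, hye⟩ := hrC.cond_right d hd hd1
  have hcomm : ⁅conjBy D x⁻¹, conjBy D y⁻¹⁆ = ⊥ := by
    rw [hxe, hye, ← conjBy_commutator, hAC, conjBy_bot]
  have hcomm2 : ⁅conjBy D (y * x⁻¹), D⁆ = ⊥ := by
    have := congrArg (fun H => conjBy H y) hcomm
    simp only [conjBy_commutator, conjBy_conjBy, mul_inv_cancel, conjBy_one, conjBy_bot] at this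
    exact this
  have hn : y * x⁻¹ ∈ A ⊔ C :=
    mul_mem (Subgroup.mem_sup_right hy) (inv_mem (Subgroup.mem_sup_left hx))
  have hn1 : y * x⁻¹ ≠ 1 := by
    intro h
    rw [mul_inv_eq_one] at h
    have : x ∈ A ⊓ C := ⟨hx, h ▸ hy⟩
    rw [hdisj] at this
    exact hx1 (Subgroup.mem_bot.1 this)
  obtain ⟨M, hM, hMle, hnM⟩ := hcov _ hn hn1
  have hrM := hall M hM hMle
  exact hn1 (Pair.eq_one_of_normalizes hrM hnM (Pair.eq_of_commute hrM
    (Pair.unip_invariant (Pair.right_mem_unipotents hrM) (Subgroup.mem_sup_left hnM))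
    (Pair.right_mem_unipotents hrM) hcomm2))

namespace CommCase

variable {A B : Subgroup G}

theorem line_cover (h : RootCommutatorCase S A B) (hS : IsRootSubgroupSet S) (hA : A ∈ S) :
    ∀ n ∈ A ⊔ ⁅A, B⁆, n ≠ 1 → ∃ M ∈ S, M ≤ A ⊔ ⁅A, B⁆ ∧ n ∈ M := by
  intro n hn _
  obtain ⟨a, ha, c, hc, rfl⟩ := mem_sup_of_comm (comm_AC h) hn
  by_cases ha1 : a = 1
  · exact ⟨_, h.1, le_sup_right, by simpa [ha1] using hc⟩
  · obtain ⟨b, hb, he⟩ := exists_conj_mem h ha ha1 hc
    exact ⟨_, hS.conj_mem A hA b, conjBy_le_line h hb, he ▸ conj_mem_conjBy b ha⟩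

/-- Two different members of a line generate it. -/
theorem line_sup_eq (hS : IsRootSubgroupSet S) (hA : A ∈ S) (hB : B ∈ S) {D : Subgroup G}
    (hD : D ∈ S) (hr : IsRankOnePair A D) (h : RootCommutatorCase S A B) {M N : Subgroup G}
    (hM : M ∈ membersIn S (A ⊔ ⁅A, B⁆)) (hN : N ∈ membersIn S (A ⊔ ⁅A, B⁆)) (hne : M ≠ N) :
    M ⊔ N = A ⊔ ⁅A, B⁆ := by
  rw [(line_of_commutator hS hA hB hD hr h).1] at hM hN
  have hfix : ∀ b ∈ B, conjBy ⁅A, B⁆ b = ⁅A, B⁆ := fun b hb =>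
    conjBy_of_commute fun c hc => (comm_right h hc hb).symm
  have e1 : ∀ b ∈ B, conjBy A b ⊔ ⁅A, B⁆ = A ⊔ ⁅A, B⁆ := fun b hb => by
    have h1 := conjBy_sup A ⁅A, B⁆ b
    rw [conjBy_line h hb, hfix b hb] at h1
    exact h1.symm
  rcases hM with ⟨b, hb, rfl⟩ | rfl <;> rcases hN with ⟨b', hb', rfl⟩ | rfl
  · have hne' : b⁻¹ * b' ≠ 1 := fun h0 => hne (by rw [inv_mul_eq_one] at h0; rw [h0])
    have := congrArg (fun H => conjBy H b) (sup_conj_eq_line h (mul_mem (inv_mem hb) hb') hne')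
    simp only [conjBy_sup, conjBy_conjBy, mul_inv_cancel_left] at this
    rw [this]
    rw [hfix b hb, e1 b hb]
  · exact e1 b hb
  · rw [sup_comm]; exact e1 b' hb'
  · exact absurd rfl hne

theorem comm_line (hS : IsRootSubgroupSet S) (hA : A ∈ S) (h : RootCommutatorCase S A B) :
    ∀ x ∈ A ⊔ ⁅A, B⁆, ∀ y ∈ A ⊔ ⁅A, B⁆, x * y = y * x := by
  intro x hx y hy
  refine forall_sup_commute (fun a ha => ?_) (fun c hc => ?_) y hy
  · exact ((forall_sup_commute (z := a) (fun a' ha' => comm_of_mem hS hA ha ha')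
      (comm_AC h a ha)) x hx).symm
  · exact ((forall_sup_commute (z := c) (fun a' ha' => (comm_AC h a' ha' c hc).symm)
      (fun c' hc' => comm_of_mem hS h.1 hc hc')) x hx).symm

theorem member_mem_linePartners (hS : IsRootSubgroupSet S) (hA : A ∈ S) (hB : B ∈ S)
    {D : Subgroup G} (hD : D ∈ S) (hr : IsRankOnePair A D) (h : RootCommutatorCase S A B)
    {M : Subgroup G} (hM : M ∈ membersIn S (A ⊔ ⁅A, B⁆)) (hne : M ≠ A) :
    M ∈ linePartners S A := by
  refine ⟨⟨hM.1, hne, commutator_eq_bot_iff_forall.2 fun a ha m hm =>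
    comm_line hS hA h a (Subgroup.mem_sup_left ha) m (hM.2 hm)⟩, ?_⟩
  rw [line_sup_eq hS hA hB hD hr h ⟨hA, le_sup_left⟩ hM hne.symm]
  exact (line_of_commutator hS hA hB hD hr h).2.1

end CommCase

/-- The key computation: `[A, [D, E]] = E`. -/
theorem opposite_of_commPartner (hS : IsRootSubgroupSet S) {A D E : Subgroup G} (hA : A ∈ S)
    (hD : D ∈ S) (hE : E ∈ S) (hr : IsRankOnePair A D) (hDE : RootCommutatorCase S D E)
    (hAE : ⁅A, E⁆ = ⊥) (hcov : ∀ n ∈ A ⊔ E, n ≠ 1 → ∃ M ∈ S, M ≤ A ⊔ E ∧ n ∈ M) :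
    RootCommutatorCase S A ⁅D, E⁆ ∧ ⁅A, ⁅D, E⁆⁆ = E ∧
      ∀ a ∈ A, a ≠ 1 → ∀ d ∈ D, conjBy A d⁻¹ = conjBy D a⁻¹ → ∀ e ∈ E,
        a⁻¹ * (e⁻¹ * d⁻¹ * e * d) * a = (e⁻¹ * d⁻¹ * e * d) * e := by
  have hAEc := commutator_eq_bot_iff_forall.1 hAE
  have hKc : RootCommutatorCase S A ⁅D, E⁆ := by
    rcases hS.pair A hA _ hDE.1 with h | h | h
    · exfalso
      obtain ⟨d, hd, hd1⟩ := exists_ne_one_of_mem hS hD
      obtain ⟨k, hk, hk1⟩ := exists_ne_one_of_mem hS hDE.1
      obtain ⟨e, he, hke⟩ := CommCase.exists_conj_mem hDE hd hd1 hk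
      refine hk1 (eq_of_centralizer_mul_mem hS hD hA (hS.conj_mem D hD e) (RankOnePair_symm hr)
        (fun x hx => CommCase.comm_left hDE hk hx)
        (fun x hx => (commutator_eq_bot_iff_forall.1 h x hx k hk).symm) hd hd1 ?_).2
      rw [CommCase.comm_left hDE hk hd, hke]
      exact conj_mem_conjBy e hd
    · exfalso
      obtain ⟨M, hM, hMle, hMr⟩ := exists_not_rankOne hS hD hA (C := ⁅D, E⁆)
        (commutator_eq_bot_iff_forall.2 (CommCase.comm_AC hDE))
        (inf_eq_bot_of_partner hS hD hA hDE.1 (RankOnePair_symm hr)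
          (CommCase.left_ne_commutator hS hDE).symm) (RankOnePair_symm hr) (RankOnePair_symm h)
        (CommCase.line_cover hDE hS hD)
      have hmem : M ∈ membersIn S (D ⊔ ⁅D, E⁆) := ⟨hM, hMle⟩
      rw [(CommCase.line_of_commutator hS hD hE hA (RankOnePair_symm hr) hDE).1] at hmem
      rcases hmem with ⟨e, he, rfl⟩ | rfl
      · refine hMr ?_
        have := Pair.conj (RankOnePair_symm hr) e
        rwa [conjBy_of_commute fun x hx => (hAEc x hx e he).symm] at this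
      · exact hMr (RankOnePair_symm h)
    · exact h
  set K := ⁅D, E⁆ with hK
  have hLE : ∀ l ∈ ⁅A, K⁆, ∀ e ∈ E, l * e = e * l := by
    intro l hl e he
    have hA' : A ≤ Subgroup.centralizer {e} := fun a ha =>
      Subgroup.mem_centralizer_singleton_iff.2 (by simpa using hAEc a ha e he)
    have hK' : K ≤ Subgroup.centralizer {e} := fun k hk =>
      Subgroup.mem_centralizer_singleton_iff.2 (by simpa using CommCase.comm_right hDE hk he)
    exact Subgroup.mem_centralizer_singleton_iff.1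
      (((Subgroup.commutator_mono hA' hK').trans (Subgroup.commutator_le_self _)) hl)
  have ident : ∀ a ∈ A, a ≠ 1 → ∀ d ∈ D, conjBy A d⁻¹ = conjBy D a⁻¹ → ∀ e ∈ E,
      a⁻¹ * (e⁻¹ * d⁻¹ * e * d) * a = (e⁻¹ * d⁻¹ * e * d) * e := by
    intro a ha ha1 d hd hpair e he
    set k := e⁻¹ * d⁻¹ * e * d with hkdef
    have hkK : k ∈ K := by
      have : k = ⁅d⁻¹, e⁻¹⁆⁻¹ := by rw [hkdef, commutatorElement_def]; group
      rw [this]
      exact inv_mem (Subgroup.commutator_mem_commutator (inv_mem hd) (inv_mem he))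
    have hd1 : d ≠ 1 := by
      rintro rfl
      rw [inv_one, conjBy_one] at hpair
      exact Pair.conjBy_right_ne_left hr (inv_mem ha) hpair.symm
    set l := k⁻¹ * a⁻¹ * k * a with hldef
    have hlL : l ∈ ⁅A, K⁆ := by
      have : l = ⁅a⁻¹, k⁻¹⁆⁻¹ := by rw [hldef, commutatorElement_def]; group
      rw [this]
      exact inv_mem (Subgroup.commutator_mem_commutator (inv_mem ha) (inv_mem hkK))
    set z := l * e⁻¹ with hzdef
    have hzA : ∀ x ∈ A, z * x = x * z := fun x hx =>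
      ((show Commute l x from CommCase.comm_left hKc hlL hx).mul_left
        (show Commute x e from hAEc x hx e he).symm.inv_left).eq
    have hke : Commute k e := CommCase.comm_right hDE hkK he
    have hlk : Commute l k := CommCase.comm_right hKc hlL hkK
    have hz1 : a⁻¹ * k * a = k * l := by rw [hldef]; group
    have hz2 : d⁻¹ * e * d = e * k := by rw [hkdef]; group
    have hzF : ∀ x ∈ conjBy D a⁻¹, z * x = x * z := by
      intro x hx
      have c1 : Commute (k * l) x := by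
        rw [← hz1]
        have hx' := mem_conjBy.1 hx
        rw [inv_inv] at hx'
        have h' : Commute k (a * x * a⁻¹) := CommCase.comm_left hDE hkK hx'
        calc a⁻¹ * k * a * x = a⁻¹ * (k * (a * x * a⁻¹)) * a := by group
          _ = a⁻¹ * ((a * x * a⁻¹) * k) * a := by rw [h'.eq]
          _ = x * (a⁻¹ * k * a) := by group
      have c2 : Commute (e * k) x := by
        rw [← hz2]
        rw [← hpair] at hx
        have hx' := mem_conjBy.1 hx
        rw [inv_inv] at hx'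
        have h' : Commute e (d * x * d⁻¹) := (hAEc _ hx' e he).symm
        calc d⁻¹ * e * d * x = d⁻¹ * (e * (d * x * d⁻¹)) * d := by group
          _ = d⁻¹ * ((d * x * d⁻¹) * e) * d := by rw [h'.eq]
          _ = x * (d⁻¹ * e * d) := by group
      have : z = (k * l) * (e * k)⁻¹ := by
        rw [hzdef, mul_inv_rev]
        calc l * e⁻¹ = (k * k⁻¹) * l * e⁻¹ := by group
          _ = k * (k⁻¹ * l) * e⁻¹ := by group
          _ = k * (l * k⁻¹) * e⁻¹ := by rw [hlk.inv_right.eq]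
          _ = k * l * (k⁻¹ * e⁻¹) := by group
      rw [this]
      exact c1.mul_left c2.inv_left
    have hr' : IsRankOnePair A (conjBy D a⁻¹) :=
      Pair.pair_of_ne hr Pair.left_mem_unipotents
        (Pair.unip_invariant (Pair.right_mem_unipotents hr) (inv_mem (Subgroup.mem_sup_left ha)))
        (Pair.conjBy_right_ne_left hr (inv_mem ha)).symm
    have hs : A ⊔ conjBy D a⁻¹ = A ⊔ D :=
      Pair.sup_eq_of_ne hr Pair.left_mem_unipotents
        (Pair.unip_invariant (Pair.right_mem_unipotents hr) (inv_mem (Subgroup.mem_sup_left ha)))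
        (Pair.conjBy_right_ne_left hr (inv_mem ha)).symm
    have hzX : ∀ x ∈ A ⊔ D, z * x = x * z := hs ▸ forall_sup_commute hzA hzF
    have hzD : ∀ x ∈ D, z * x = x * z := fun x hx => hzX x (Subgroup.mem_sup_right hx)
    have hroot : z⁻¹ * (a * e⁻¹) ∈ conjBy A k⁻¹ := by
      have : z⁻¹ * (a * e⁻¹) = k⁻¹ * a * k⁻¹⁻¹ := by
        have cez : Commute e a := (hAEc a ha e he).symm
        have cla : Commute l a := CommCase.comm_left hKc hlL ha
        have cle : Commute l e := hLE l hlL e he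
        calc z⁻¹ * (a * e⁻¹) = e * (l⁻¹ * a) * e⁻¹ := by rw [hzdef]; group
          _ = e * (a * l⁻¹) * e⁻¹ := by rw [cla.inv_left.eq]
          _ = (e * a) * (l⁻¹ * e⁻¹) := by group
          _ = (a * e) * (e⁻¹ * l⁻¹) := by rw [cez.eq, cle.inv_inv.eq]
          _ = a * l⁻¹ := by group
          _ = k⁻¹ * a * k⁻¹⁻¹ := by rw [hldef]; group
      rw [this]
      exact conj_mem_conjBy k⁻¹ ha
    suffices hz : z = 1 by
      rw [hz1]
      rw [hzdef, mul_inv_eq_one] at hz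
      rw [hz]
    by_cases he1 : e = 1
    · subst he1
      simp only [inv_one, mul_one] at hroot
      have := (eq_of_centralizer_mul_mem hS hA hD (hS.conj_mem A hA k⁻¹) hr (z := z⁻¹)
        (fun x hx => (show Commute z x from hzA x hx).inv_left)
        (fun x hx => (show Commute z x from hzD x hx).inv_left) ha ha1 hroot).2
      simpa using this
    have hae1 : a * e⁻¹ ≠ 1 := by
      intro h
      rw [mul_inv_eq_one] at h
      have hEA := eq_of_inter hS hA hD hE hr ha (h ▸ he) ha1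
      exact not_rankOne_of_commCase hS hD hE hDE (hEA.symm ▸ RankOnePair_symm hr)
    obtain ⟨M, hM, hMle, hm⟩ := hcov (a * e⁻¹)
      (mul_mem (Subgroup.mem_sup_left ha) (inv_mem (Subgroup.mem_sup_right he))) hae1
    have hzE : ∀ x ∈ E, z * x = x * z := fun x hx =>
      ((show Commute l x from hLE l hlL x hx).mul_left
        (show Commute e x from comm_of_mem hS hE he hx).inv_left).eq
    have hzM : ∀ x ∈ M, z * x = x * z := fun x hx =>
      forall_sup_commute hzA hzE x (hMle hx)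
    have haM : a = (a * e⁻¹) * e := by group
    rcases hS.pair M hM D hD with h | h | h
    · exfalso
      refine Pair.not_commute_commutator hr ha ha1 hd hd1 ?_
      have hx : Commute (a * e⁻¹) d := commutator_eq_bot_iff_forall.1 h _ hm d hd
      have he' : Commute ⁅e, d⁆ d := CommCase.comm_right (CommCase.symm hDE)
        (Subgroup.commutator_mem_commutator he hd) hd
      have : ⁅a, d⁆ = (a * e⁻¹) * ⁅e, d⁆ * (a * e⁻¹)⁻¹ := by
        conv_lhs => rw [haM]
        have h1 : ⁅(a * e⁻¹) * e, d⁆ =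
            (a * e⁻¹) * ⁅e, d⁆ * (a * e⁻¹)⁻¹ * ⁅a * e⁻¹, d⁆ := by
          simp only [commutatorElement_def]; group
        rw [h1, hx.commutator_eq, mul_one]
      rw [this]
      exact (hx.mul_left he').mul_left hx.inv_left
    · have := (eq_of_centralizer_mul_mem hS hM hD (hS.conj_mem A hA k⁻¹) h (z := z⁻¹)
        (fun x hx => (show Commute z x from hzM x hx).inv_left)
        (fun x hx => (show Commute z x from hzD x hx).inv_left) hm hae1 hroot).2
      simpa using this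
    · exfalso
      have hME : ⁅E, M⁆ = ⊥ := commutator_eq_bot_iff_forall.2 fun x hx y hy =>
        forall_sup_commute (fun u hu => (hAEc u hu x hx).symm)
          (fun u hu => comm_of_mem hS hE hx hu) y (hMle hy)
      obtain ⟨d', hd', hd'1⟩ := exists_ne_one_of_mem hS hD
      have hnil := (triangle hS hE hD hM (CommCase.symm hDE) (CommCase.symm h) hME hd' hd'1).2.2.2.2
      have hDR : D ≤ E ⊔ D ⊔ M := le_sup_right.trans le_sup_left
      have haR : a ∈ E ⊔ D ⊔ M := by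
        rw [haM]
        exact mul_mem (Subgroup.mem_sup_right hm) (Subgroup.mem_sup_left (Subgroup.mem_sup_left he))
      refine Pair.not_nilpotent hr ?_ hDR hnil
      have h2 := conjBy_le_of_mem hDR (inv_mem haR)
      rw [← hpair] at h2
      intro x hx
      have := conjBy_le_of_mem h2 (hDR hd)
      rw [conjBy_conjBy, mul_inv_cancel, conjBy_one] at this
      exact this hx
  refine ⟨hKc, ?_, ident⟩
  symm
  refine CommCase.eq_of_le_commutator hS hA hD hr hKc hE fun e he => ?_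
  obtain ⟨a, ha, ha1⟩ := exists_ne_one_of_mem hS hA
  obtain ⟨d, hd, -, hpair⟩ := hr.cond_left a ha ha1
  have h := ident a ha ha1 d hd hpair e he
  set k := e⁻¹ * d⁻¹ * e * d with hkdef
  have hkK : k ∈ K := by
    have : k = ⁅d⁻¹, e⁻¹⁆⁻¹ := by rw [hkdef, commutatorElement_def]; group
    rw [this]
    exact inv_mem (Subgroup.commutator_mem_commutator (inv_mem hd) (inv_mem he))
  have : e = ⁅a⁻¹, k⁻¹⁆⁻¹ := by
    calc e = k⁻¹ * (k * e) := by group
      _ = k⁻¹ * (a⁻¹ * k * a) := by rw [h]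
      _ = ⁅a⁻¹, k⁻¹⁆⁻¹ := by simp only [commutatorElement_def]; group
  rw [this]
  exact inv_mem (Subgroup.commutator_mem_commutator (inv_mem ha) (inv_mem hkK))

/-- A commutator partner of `D` inside a line through `A`, where `D` is opposite `A`. -/
theorem exists_commPartner_in_line (hS : IsRootSubgroupSet S) {A P D : Subgroup G} (hA : A ∈ S)
    (hP : P ∈ S) (hD : D ∈ S) (hr : IsRankOnePair A D) (h : RootCommutatorCase S A P) :
    ∃ E ∈ membersIn S (A ⊔ ⁅A, P⁆), E ≠ A ∧ E ∈ linePartners S A ∧ RootCommutatorCase S D E ∧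
      RootCommutatorCase S A ⁅D, E⁆ ∧ ⁅A, ⁅D, E⁆⁆ = E := by
  set C := ⁅A, P⁆ with hC
  obtain ⟨E, hE, hEr⟩ : ∃ E ∈ membersIn S (A ⊔ C), ¬ IsRankOnePair E D := by
    by_cases hCr : IsRankOnePair C D
    · obtain ⟨M, hM, hle, hMr⟩ := exists_not_rankOne hS hA hD
        (commutator_eq_bot_iff_forall.2 (CommCase.comm_AC h))
        (inf_eq_bot_of_partner hS hA hD h.1 hr (CommCase.left_ne_commutator hS h).symm) hr hCr
        (CommCase.line_cover h hS hA)
      exact ⟨M, ⟨hM, hle⟩, hMr⟩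
    · exact ⟨C, ⟨h.1, le_sup_right⟩, hCr⟩
  have hne : E ≠ A := fun he => hEr (he ▸ hr)
  have hline := CommCase.member_mem_linePartners hS hA hP hD hr h hE hne
  have hsup := CommCase.line_sup_eq hS hA hP hD hr h ⟨hA, le_sup_left⟩ hE hne.symm
  have hcov : ∀ n ∈ A ⊔ E, n ≠ 1 → ∃ M ∈ S, M ≤ A ⊔ E ∧ n ∈ M := by
    rw [hsup]; exact CommCase.line_cover h hS hA
  rcases hS.pair E hE.1 D hD with h0 | h0 | h0
  · exact absurd h0 (line_no_commute hS hA hD hE.1 hr hline.1.2.2 hcov)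
  · exact absurd h0 hEr
  · obtain ⟨h1, h2, -⟩ :=
      opposite_of_commPartner hS hA hD hE.1 hr (CommCase.symm h0) hline.1.2.2 hcov
    exact ⟨E, hE, hne, hline, CommCase.symm h0, h1, h2⟩

theorem cover_of_linePartner {A B : Subgroup G} (h : B ∈ linePartners S A) :
    ∀ n ∈ A ⊔ B, n ≠ 1 → ∃ M ∈ S, M ≤ A ⊔ B ∧ n ∈ M := by
  intro n hn hn1
  obtain ⟨M, ⟨hM, hle⟩, hm⟩ := h.2.2.1 n hn hn1
  exact ⟨M, hM, hle, hm⟩

/-- Every line is the line of a commutator pair. -/
theorem exists_commutator_line (hS : IsRootSubgroupSet S) {A B D : Subgroup G} (hA : A ∈ S)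
    (hD : D ∈ S) (hr : IsRankOnePair A D) (hB : B ∈ linePartners S A) :
    ∃ P ∈ S, RootCommutatorCase S A P ∧ A ⊔ B = A ⊔ ⁅A, P⁆ := by
  obtain ⟨hBS, hne, hAB⟩ := hB.1
  have hcov := cover_of_linePartner hB
  rcases hS.pair B hBS D hD with h0 | h0 | h0
  · exact absurd h0 (line_no_commute hS hA hD hBS hr hAB hcov)
  rotate_left
  · obtain ⟨h1, h2, -⟩ := opposite_of_commPartner hS hA hD hBS hr (CommCase.symm h0) hAB hcov
    exact ⟨_, (CommCase.symm h0).1, h1, by rw [h2]⟩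
  obtain ⟨d, hd, hd1⟩ := exists_ne_one_of_mem hS hD
  obtain ⟨a, ha, ha1, hae⟩ := hr.cond_right d hd hd1
  obtain ⟨b, hb, -, hbe⟩ := h0.cond_right d hd hd1
  set n := b * a⁻¹ with hn
  have hnmem : n ∈ A ⊔ B :=
    mul_mem (Subgroup.mem_sup_right hb) (inv_mem (Subgroup.mem_sup_left ha))
  have hn1 : n ≠ 1 := by
    rw [hn, Ne, mul_inv_eq_one]
    intro hba
    exact hne (eq_of_inter hS hA hD hBS hr ha (hba ▸ hb) ha1)
  have habc : Commute a b := commutator_eq_bot_iff_forall.1 hAB a ha b hb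
  have hcomm : ⁅conjBy D n, D⁆ = ⊥ := by
    have h1 : ⁅conjBy D a⁻¹, conjBy D b⁻¹⁆ = ⊥ := by
      rw [hae, hbe, ← conjBy_commutator, hAB, conjBy_bot]
    have := congrArg (fun H => conjBy H b) h1
    simp only [conjBy_commutator, conjBy_conjBy, mul_inv_cancel, conjBy_one, conjBy_bot] at this
    exact this
  obtain ⟨M, hM, hMle, hnM⟩ := hcov n hnmem hn1
  have hAM : ⁅A, M⁆ = ⊥ := commutator_eq_bot_iff_forall.2 fun u hu v hv =>
    forall_sup_commute (fun x hx => comm_of_mem hS hA hu hx)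
      (fun x hx => commutator_eq_bot_iff_forall.1 hAB u hu x hx) v (hMle hv)
  rcases hS.pair M hM D hD with h | h | h
  · exfalso
    -- then `conjBy D n = D`, so `conjBy A d⁻¹ = conjBy B d⁻¹`
    have hf : conjBy D n = D := conjBy_of_commute fun x hx =>
      commutator_eq_bot_iff_forall.1 h n hnM x hx
    refine hne (conjBy_inj (g := d⁻¹) ?_)
    rw [← hae, ← hbe]
    have := congrArg (fun H => conjBy H b⁻¹) hf
    simp only [conjBy_conjBy, hn, inv_mul_cancel_left] at this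
    exact this.symm
  · exact absurd (Pair.eq_one_of_normalizes h hnM (Pair.eq_of_commute h
      (Pair.unip_invariant (Pair.right_mem_unipotents h) (Subgroup.mem_sup_left hnM))
      (Pair.right_mem_unipotents h) hcomm)) hn1
  · have hMfix : conjBy M a⁻¹ = M := conjBy_of_commute fun x hx =>
      commutator_eq_bot_iff_forall.1 hAM a⁻¹ (inv_mem ha) x hx
    have hc := CommCase.conj hS (CommCase.symm h) a⁻¹
    rw [hMfix] at hc
    have hB' : conjBy B d⁻¹ = conjBy (conjBy D a⁻¹) n⁻¹ := by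
      rw [conjBy_conjBy, ← hbe, hn]
      congr 1
      calc b⁻¹ = b⁻¹ * a * a⁻¹ := by group
        _ = a * b⁻¹ * a⁻¹ := by rw [← habc.inv_right.eq]
        _ = (b * a⁻¹)⁻¹ * a⁻¹ := by group
    have hl := CommCase.sup_conj_eq_line hc (inv_mem hnM) (by simpa using hn1)
    rw [← hB', hae] at hl
    rw [hae] at hc
    have hc2 := CommCase.conj hS hc d
    rw [conjBy_conjBy, mul_inv_cancel, conjBy_one] at hc2
    refine ⟨conjBy M d, hS.conj_mem M hM d, hc2, ?_⟩
    have := congrArg (fun H => conjBy H d) hl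
    simp only [conjBy_sup, conjBy_commutator, conjBy_conjBy, mul_inv_cancel, conjBy_one] at this
    exact this

/-- Rank one pairs in a line configuration are special. -/
theorem special_of_commPartner (hS : IsRootSubgroupSet S) {A D E : Subgroup G} (hA : A ∈ S)
    (hD : D ∈ S) (hE : E ∈ S) (hr : IsRankOnePair A D) (hDE : RootCommutatorCase S D E)
    (hAE : ⁅A, E⁆ = ⊥) (hcov : ∀ n ∈ A ⊔ E, n ≠ 1 → ∃ M ∈ S, M ≤ A ⊔ E ∧ n ∈ M) :
    IsSpecialRankOnePair A D := by
  obtain ⟨hKc, -, ident⟩ := opposite_of_commPartner hS hA hD hE hr hDE hAE hcov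
  have hAEc := commutator_eq_bot_iff_forall.1 hAE
  refine ⟨hr, fun a ha ha1 d hd _ hpair => ?_⟩
  set b' := a * (d⁻¹ * a * d) * a⁻¹ with hb'
  have hb'D : b' ∈ D := by
    have h := conj_mem_conjBy d⁻¹ ha
    rw [inv_inv, hpair, mem_conjBy, inv_inv] at h
    exact h
  obtain ⟨e, he, he1⟩ := exists_ne_one_of_mem hS hE
  have hid := ident a ha ha1 d hd hpair e he
  set k := e⁻¹ * d⁻¹ * e * d with hk
  have hkK : k ∈ ⁅D, E⁆ := by
    have : k = ⁅d⁻¹, e⁻¹⁆⁻¹ := by rw [hk, commutatorElement_def]; group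
    rw [this]
    exact inv_mem (Subgroup.commutator_mem_commutator (inv_mem hd) (inv_mem he))
  have cke : Commute k e := CommCase.comm_right hDE hkK he
  have cdk : Commute d k := (CommCase.comm_left hDE hkK hd).symm
  have cae : Commute a e := hAEc a ha e he
  have t1 : d⁻¹ * e * d = e * k := by rw [hk]; group
  have t2 : d * e * d⁻¹ = e * k⁻¹ := by
    calc d * e * d⁻¹ = d * ((e * k) * k⁻¹) * d⁻¹ := by group
      _ = d * ((d⁻¹ * e * d) * k⁻¹) * d⁻¹ := by rw [t1]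
      _ = e * (d * k⁻¹ * d⁻¹) := by group
      _ = e * k⁻¹ := by rw [cdk.inv_right.eq, mul_inv_cancel_right]
  have t3 : a * k * a⁻¹ = k * e⁻¹ := by
    calc a * k * a⁻¹ = a * ((k * e) * e⁻¹) * a⁻¹ := by group
      _ = a * ((a⁻¹ * k * a) * e⁻¹) * a⁻¹ := by rw [hid]
      _ = k * (a * e⁻¹ * a⁻¹) := by group
      _ = k * e⁻¹ := by rw [cae.inv_right.eq, mul_inv_cancel_right]
  have s1 : a * (e * k⁻¹) * a⁻¹ = e * e * k⁻¹ := by
    calc a * (e * k⁻¹) * a⁻¹ = (a * e * a⁻¹) * (a * k * a⁻¹)⁻¹ := by group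
      _ = e * (k * e⁻¹)⁻¹ := by rw [cae.eq, mul_inv_cancel_right, t3]
      _ = e * e * k⁻¹ := by group
  have s2 : d⁻¹ * (e * e * k⁻¹) * d = e * e * k := by
    calc d⁻¹ * (e * e * k⁻¹) * d = (d⁻¹ * e * d) * (d⁻¹ * e * d) * (d⁻¹ * k⁻¹ * d) := by group
      _ = (e * k) * (e * k) * k⁻¹ := by
        rw [t1, show d⁻¹ * k⁻¹ * d = k⁻¹ by rw [cdk.inv_inv.eq, inv_mul_cancel_right]]
      _ = e * (k * e) := by group
      _ = e * (e * k) := by rw [cke.eq]
      _ = e * e * k := by group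
  have s3 : a * (e * e * k) * a⁻¹ = e * k := by
    calc a * (e * e * k) * a⁻¹ = (a * e * a⁻¹) * (a * e * a⁻¹) * (a * k * a⁻¹) := by group
      _ = e * e * (k * e⁻¹) := by rw [cae.eq, mul_inv_cancel_right, t3]
      _ = e * e * (e⁻¹ * k) := by rw [cke.inv_right.eq]
      _ = e * k := by group
  have hb'e : b' * e * b'⁻¹ = e * k := by
    calc b' * e * b'⁻¹ = a * (d⁻¹ * (a * (d * (a⁻¹ * e * a) * d⁻¹) * a⁻¹) * d) * a⁻¹ := by
          rw [hb']; group
      _ = e * k := by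
        rw [show a⁻¹ * e * a = e by rw [mul_assoc, ← cae.eq, inv_mul_cancel_left], t2, s1, s2, s3]
  have hcom : e * (d * b') = (d * b') * e := by
    calc e * (d * b') = d * (d⁻¹ * e * d) * b' := by group
      _ = d * (b' * e * b'⁻¹) * b' := by rw [t1, hb'e]
      _ = (d * b') * e := by group
  have h1 : d * b' = 1 := by
    by_contra hne
    exact not_commute_elements hS hD hE hA (RankOnePair_symm hr) (CommCase.ne_bot hS hDE)
      (mul_mem hd hb'D) hne he he1 hcom.symm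
  calc d⁻¹ * a * d = a⁻¹ * (d⁻¹ * (d * b')) * a := by rw [hb']; group
    _ = a⁻¹ * d⁻¹ * a := by rw [h1, mul_one]

/-! ### Non-degenerate classes -/

theorem conj_partner (hcl : IsRootSubgroupClass S) (h : ∃ A ∈ S, ∃ B ∈ S, IsRankOnePair A B)
    {A : Subgroup G} (hA : A ∈ S) : ∃ D ∈ S, IsRankOnePair A D := by
  obtain ⟨A₀, hA₀, B₀, hB₀, hr⟩ := h
  obtain ⟨g, rfl⟩ := hcl.2.2 A₀ hA₀ A hA
  exact ⟨_, hcl.1.conj_mem B₀ hB₀ g, Pair.conj hr g⟩

theorem conj_commPartner (hcl : IsRootSubgroupClass S)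
    (h : ∃ A ∈ S, ∃ B ∈ S, RootCommutatorCase S A B) {A : Subgroup G} (hA : A ∈ S) :
    ∃ P ∈ S, RootCommutatorCase S A P := by
  obtain ⟨A₀, hA₀, B₀, hB₀, hc⟩ := h
  obtain ⟨g, rfl⟩ := hcl.2.2 A₀ hA₀ A hA
  exact ⟨_, hcl.1.conj_mem B₀ hB₀ g, CommCase.conj hcl.1 hc g⟩

/-- The third member of a triangle: for `[X, P] = C` there is `M` with `[C, M] = X`. -/
theorem exists_opposite (hS : IsRootSubgroupSet S) (hpart : ∀ A ∈ S, ∃ D ∈ S, IsRankOnePair A D)
    {X P : Subgroup G} (hX : X ∈ S) (hP : P ∈ S) (h : RootCommutatorCase S X P) :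
    ∃ M ∈ S, RootCommutatorCase S ⁅X, P⁆ M ∧ ⁅⁅X, P⁆, M⁆ = X ∧ M ∈ linePartners S X := by
  obtain ⟨D₁, hD₁, hr₁⟩ := hpart X hX
  obtain ⟨hmem, -, hlp⟩ := CommCase.line_of_commutator hS hX hP hD₁ hr₁ h
  set C := ⁅X, P⁆ with hC
  obtain ⟨D₀, hD₀, hr₀⟩ := hpart C h.1
  have hsymm : ⁅C, X⁆ = ⊥ :=
    commutator_eq_bot_iff_forall.2 fun c hc x hx => CommCase.comm_left h hc hx
  have hcov : ∀ n ∈ C ⊔ X, n ≠ 1 → ∃ M ∈ S, M ≤ C ⊔ X ∧ n ∈ M := by
    rw [sup_comm]; exact CommCase.line_cover h hS hX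
  obtain ⟨E, hE, hEr⟩ : ∃ E ∈ membersIn S (X ⊔ C), ¬ IsRankOnePair E D₀ := by
    by_cases hXr : IsRankOnePair X D₀
    · obtain ⟨M, hM, hle, hMr⟩ := exists_not_rankOne hS hX hD₀
        (commutator_eq_bot_iff_forall.2 (CommCase.comm_AC h))
        (inf_eq_bot_of_partner hS hX hD₁ h.1 hr₁ (CommCase.left_ne_commutator hS h).symm) hXr hr₀
        (CommCase.line_cover h hS hX)
      exact ⟨M, ⟨hM, hle⟩, hMr⟩
    · exact ⟨X, ⟨hX, le_sup_left⟩, hXr⟩
  rw [hmem] at hE
  rcases hE with ⟨p, hp, rfl⟩ | rfl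
  swap
  · exact absurd hr₀ hEr
  set D₂ := conjBy D₀ p⁻¹ with hD₂
  have hD₂S : D₂ ∈ S := hS.conj_mem D₀ hD₀ _
  have hr₂ : IsRankOnePair C D₂ := by
    have := Pair.conj hr₀ p⁻¹
    rwa [conjBy_of_commute fun c hc =>
      (CommCase.comm_right h hc (inv_mem hp)).symm] at this
  have hnr : ¬ IsRankOnePair X D₂ := fun hh => by
    have := Pair.conj hh p
    rw [hD₂, conjBy_conjBy, mul_inv_cancel, conjBy_one] at this
    exact hEr this
  rcases hS.pair X hX D₂ hD₂S with h0 | h0 | h0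
  · exact absurd h0 (line_no_commute hS h.1 hD₂S hX hr₂ hsymm hcov)
  · exact absurd h0 hnr
  · obtain ⟨h1, h2, -⟩ :=
      opposite_of_commPartner hS h.1 hD₂S hX hr₂ (CommCase.symm h0) hsymm hcov
    obtain ⟨-, -, hl⟩ := CommCase.line_of_commutator hS hX hD₂S hD₁ hr₁ h0
    refine ⟨⁅D₂, X⁆, (CommCase.symm h0).1, h1, h2, ?_⟩
    rw [Subgroup.commutator_comm]
    exact linePartners_symm h0.1 hl

/-- Every line partner of `A` is conjugate to `A` inside `⟨Λ_A, B⟩`. -/
theorem linePartner_conj (hS : IsRootSubgroupSet S)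
    (hpart : ∀ A ∈ S, ∃ D ∈ S, IsRankOnePair A D) {A B E : Subgroup G} (hA : A ∈ S) (hB : B ∈ S)
    (hr : IsRankOnePair A B) (hE : E ∈ linePartners S A) :
    ∃ u ∈ (⨆ C ∈ linePartners S A, C) ⊔ B, conjBy A u = E := by
  set U := (⨆ C ∈ linePartners S A, C) ⊔ B
  have hΛ : ∀ C ∈ linePartners S A, C ≤ U := fun C hC =>
    (le_iSup₂ (f := fun (C : Subgroup G) (_ : C ∈ linePartners S A) => C) C hC).trans le_sup_left
  obtain ⟨P, hP, hc, hs⟩ := exists_commutator_line hS hA hB hr hE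
  obtain ⟨E₀, hE₀, hne₀, hE₀l, hBE₀, hcK, hK⟩ := exists_commPartner_in_line hS hA hP hB hr hc
  set K := ⁅B, E₀⁆ with hKdef
  have hKU : K ≤ U :=
    (Subgroup.commutator_mono le_sup_right (hΛ E₀ hE₀l)).trans (Subgroup.commutator_le_self U)
  have hmem := (CommCase.line_of_commutator hS hA hBE₀.1 hB hr hcK).1
  rw [hK] at hmem
  have hsup := CommCase.line_sup_eq hS hA hP hB hr hc ⟨hA, le_sup_left⟩ hE₀ hne₀.symm
  have hEmem : E ∈ membersIn S (A ⊔ E₀) := ⟨hE.1.1, by rw [hsup, ← hs]; exact le_sup_right⟩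
  have hcase : ∀ F ∈ membersIn S (A ⊔ E₀), F ≠ E₀ → ∃ u ∈ U, conjBy A u = F := by
    intro F hF hne
    rw [hmem] at hF
    obtain ⟨k, hk, rfl⟩ := hF.resolve_right hne
    exact ⟨k, hKU hk, rfl⟩
  by_cases hne : E = E₀
  swap
  · exact hcase E hEmem hne
  rw [hne]
  obtain ⟨M, hM, hMc, hMe, hMl⟩ := exists_opposite hS hpart hA hBE₀.1 hcK
  rw [hK] at hMc hMe
  obtain ⟨m, hm, hm1⟩ := exists_ne_one_of_mem hS hM
  have hle : conjBy E₀ m ≤ A ⊔ E₀ := by
    have := CommCase.conjBy_le_line hMc hm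
    rwa [hMe, sup_comm] at this
  have hne' : conjBy E₀ m ≠ E₀ := by
    intro h
    have h1 := CommCase.sup_conj_eq_line hMc hm hm1
    rw [h, hMe, sup_idem] at h1
    have hAle : A ≤ E₀ := h1 ▸ le_sup_right
    obtain ⟨a, ha, ha1⟩ := exists_ne_one_of_mem hS hA
    exact hne₀ (eq_of_inter hS hA hB hE₀.1 hr ha (hAle ha) ha1)
  obtain ⟨u, hu, he⟩ := hcase _ ⟨hS.conj_mem E₀ hE₀.1 m, hle⟩ hne'
  refine ⟨m⁻¹ * u, mul_mem (inv_mem (hΛ M hMl hm)) hu, ?_⟩
  rw [← conjBy_conjBy, he, conjBy_conjBy, inv_mul_cancel, conjBy_one]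

end Cfsg.Agent.RootSub
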