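import Cfsg.Agent.RootSub.Lines

/-! Components of the graph of rank one pairs. -/

set_option autoImplicit false

namespace Cfsg.Agent.RootSub

open Cfsg
open scoped commutatorElement

variable {G : Type*} [Group G] {S : Set (Subgroup G)}

theorem FAdj_symm {A B : Subgroup G} (h : FAdj S A B) : FAdj S B A :=
  ⟨h.2.1, h.1, RankOnePair_symm h.2.2⟩

theorem FReach_symm {A B : Subgroup G} (h : Relation.ReflTransGen (FAdj S) A B) :
    Relation.ReflTransGen (FAdj S) B A :=
  by
  induction h with
  | refl => exact .refl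
  | tail _ h ih => exact ih.head (FAdj_symm h)

theorem componentOf_eq {A B : Subgroup G} (h : Relation.ReflTransGen (FAdj S) A B) :
    componentOf (FAdj S) S A = componentOf (FAdj S) S B := by
  ext C
  exact ⟨fun hC => ⟨hC.1, (FReach_symm h).trans hC.2⟩, fun hC => ⟨hC.1, h.trans hC.2⟩⟩

theorem conjugate_of_partner {A B : Subgroup G} (h : IsRankOnePair A B) :
    ∃ g : G, B = conjBy A g := by
  obtain ⟨g, -, hg⟩ := Pair.right_mem_unipotents h
  exact ⟨g, hg⟩

theorem conjugate_of_reach {A B : Subgroup G} (h : Relation.ReflTransGen (FAdj S) A B) :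
    ∃ g : G, B = conjBy A g := by
  induction h with
  | refl => exact ⟨1, (conjBy_one A).symm⟩
  | tail _ h ih =>
    obtain ⟨g, rfl⟩ := ih
    obtain ⟨x, rfl⟩ := conjugate_of_partner h.2.2
    exact ⟨x * g, conjBy_conjBy ..⟩

/-- A line `{A, C, E}` with `A`, `C` commuting and `a * c ∈ E` lies in one component: `E` is
reached from any rank one partner of `A`. -/
theorem line_adj (hS : IsRootSubgroupSet S) {A A' C E : Subgroup G} (hA : A ∈ S) (hA' : A' ∈ S)
    (hC : C ∈ S) (hE : E ∈ S) (hr : IsRankOnePair A A') (hAC : ⁅A, C⁆ = ⊥) {a c : G} (ha : a ∈ A)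
    (ha1 : a ≠ 1) (hc : c ∈ C) (hc1 : c ≠ 1) (he : a * c ∈ E) :
    Relation.ReflTransGen (FAdj S) A C ∨ IsRankOnePair E A' := by
  have hac := commutator_eq_bot_iff_forall.1 hAC
  rcases hS.pair C hC A' hA' with h0 | h0 | h0
  · exfalso
    rw [hac a ha c hc] at he
    refine hc1 (eq_of_centralizer_mul_mem hS hA hA' hE hr
      (fun x hx => (hac x hx c hc).symm) (commutator_eq_bot_iff_forall.1 h0 c hc) ha ha1 he).2
  · exact Or.inl (.head ⟨hA, hA', hr⟩ (.single ⟨hA', hC, RankOnePair_symm h0⟩))
  -- `L = [C, A']`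
  set L := ⁅C, A'⁆ with hL
  rcases hS.pair E hE A' hA' with h1 | h1 | h1
  rotate_left
  · exact Or.inr h1
  -- the cases where `[a c, a']` commutes with `A'`
  all_goals
    obtain ⟨x, hx, hx1⟩ := exists_ne_one_of_mem hS hA'
    have hm : Commute ⁅a * c, x⁆ x := by
      first
      | exact CommCase.comm_right h1 (Subgroup.commutator_mem_commutator he hx) hx
      | (rw [commutatorElement_eq_one_iff_commute.2 (commutator_eq_bot_iff_forall.1 h1 _ he x hx)]
         exact Commute.one_left x)
    set l := ⁅c, x⁆ with hl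
    have hlL : l ∈ L := Subgroup.commutator_mem_commutator hc hx
    have hlA' : ∀ y ∈ A', l * y = y * l := fun y hy => CommCase.comm_right h0 hlL hy
    set E' := conjBy A' a⁻¹ with hE'
    -- `l * x` fixes `E'`
    have hfix : conjBy E' (l * x) = E' := by
      have e1 : a * (l * x) * a⁻¹ = ⁅a * c, x⁆ * x := by
        rw [hl]; simp only [commutatorElement_def]
        have := hac a ha c hc
        group
      have hcm : ∀ y ∈ A', (a * (l * x) * a⁻¹) * y = y * (a * (l * x) * a⁻¹) := by
        intro y hy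
        rw [e1]
        refine (show Commute (⁅a * c, x⁆ * x) y from Commute.mul_left ?_ ?_)
        · first
          | exact CommCase.comm_right h1 (Subgroup.commutator_mem_commutator he hx) hy
          | (rw [commutatorElement_eq_one_iff_commute.2 (commutator_eq_bot_iff_forall.1 h1 _ he x hx)]
             exact Commute.one_left y)
        · exact comm_of_mem hS hA' hx hy
      refine conjBy_of_commute fun z hz => ?_
      rw [hE', mem_conjBy, inv_inv] at hz
      have := hcm _ hz
      calc l * x * z = a⁻¹ * ((a * (l * x) * a⁻¹) * (a * z * a⁻¹)) * a := by group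
        _ = a⁻¹ * ((a * z * a⁻¹) * (a * (l * x) * a⁻¹)) * a := by rw [this]
        _ = z * (l * x) := by group
    have haX : a⁻¹ ∈ A ⊔ A' := inv_mem (Subgroup.mem_sup_left ha)
    have hE'Ω := Pair.unip_invariant (Pair.right_mem_unipotents hr) haX
    have hne : A' ≠ E' := fun h => ha1 (by
      simpa using Pair.eq_one_of_normalizes hr (inv_mem ha) h.symm)
    have hp := Pair.pair_of_ne hr (Pair.right_mem_unipotents hr) hE'Ω hne
    have hfix' : conjBy E' x = conjBy E' l⁻¹ := by
      have h2 := conjBy_conjBy E' (l * x) l⁻¹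
      rw [hfix, inv_mul_cancel_left] at h2
      exact h2.symm
    have hxne : conjBy E' x ≠ E' := fun h =>
      hx1 (Pair.eq_one_of_normalizes hp hx h)
    have hE'S : E' ∈ S := hS.conj_mem A' hA' _
    rcases hS.pair L h0.1 E' hE'S with h2 | h2 | h2
    · exfalso
      refine hxne (hfix'.trans ?_)
      exact conjBy_of_commute fun y hy =>
        commutator_eq_bot_iff_forall.1 h2 l⁻¹ (inv_mem hlL) y hy
    · exfalso
      by_cases hl1 : l = 1
      · exact hxne (by rw [hfix', hl1, inv_one, conjBy_one])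
      obtain ⟨e, he', -, hee⟩ := h2.cond_left l hlL hl1
      rw [conjBy_eq_iff, inv_inv, ← hfix'] at hee
      have hLΩ : L ∈ unipotentSubgroups A A' := by
        rw [hee]
        exact Pair.unip_invariant (Pair.unip_invariant hE'Ω (Subgroup.mem_sup_right hx))
          (Pair.unip_le hE'Ω he')
      have hLA' : L = A' := Pair.eq_of_commute hr hLΩ (Pair.right_mem_unipotents hr)
        (commutator_eq_bot_iff_forall.2 fun y hy z hz => CommCase.comm_right h0 hy hz)
      exact CommCase.left_ne_commutator hS (CommCase.symm h0)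
        (by rw [Subgroup.commutator_comm, ← hL, hLA'])
    · exfalso
      refine hxne (Pair.eq_of_commute hr (Pair.unip_invariant hE'Ω (Subgroup.mem_sup_right hx))
        hE'Ω ?_)
      refine commutator_eq_bot_iff_forall.2 fun y hy z hz => ?_
      have h3 := CommCase.symm h2
      rw [hfix'] at hy
      exact (forall_sup_commute (z := z) (fun w hw => comm_of_mem hS hE'S hz hw)
        (CommCase.comm_AC h3 z hz) y (CommCase.conjBy_le_line h3 (inv_mem hlL) hy)).symm

theorem no_line_between_components (hS : IsRootSubgroupSet S) {A B A' B' : Subgroup G}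
    (hA : A ∈ S) (hA' : A' ∈ S) (hB' : B' ∈ S) (hrA : IsRankOnePair A A')
    (hrB : IsRankOnePair B B') (hB : B ∈ linePartners S A) :
    Relation.ReflTransGen (FAdj S) A B := by
  obtain ⟨⟨hBS, hne, hcomm⟩, hpart⟩ := hB
  obtain ⟨a, ha, ha1⟩ := exists_ne_one_of_mem hS hA
  obtain ⟨b, hb, hb1⟩ := exists_ne_one_of_mem hS hBS
  have hab1 : a * b ≠ 1 := by
    intro h
    have hmem : a ∈ B := by rw [eq_inv_of_mul_eq_one_left h]; exact inv_mem hb
    exact hne (eq_of_inter hS hA hA' hBS hrA ha hmem ha1)
  obtain ⟨E, ⟨hE, -⟩, hEab⟩ := hpart.2.1 (a * b)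
    (mul_mem (Subgroup.mem_sup_left ha) (Subgroup.mem_sup_right hb)) hab1
  have hcomm' : ⁅B, A⁆ = ⊥ := by rw [Subgroup.commutator_comm]; exact hcomm
  rcases line_adj hS hA hA' hBS hE hrA hcomm ha ha1 hb hb1 hEab with h | hEA'
  · exact h
  rcases line_adj hS hBS hB' hA hE hrB hcomm' hb hb1 ha ha1
    (by rw [← commutator_eq_bot_iff_forall.1 hcomm a ha b hb]; exact hEab) with h | hEB'
  · exact FReach_symm h
  exact (Relation.ReflTransGen.head ⟨hA, hA', hrA⟩ (.single ⟨hA', hE, RankOnePair_symm hEA'⟩)).trans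
    (.head ⟨hE, hB', hEB'⟩ (.single ⟨hB', hBS, RankOnePair_symm hrB⟩))

end Cfsg.Agent.RootSub
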