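import Cfsg.Agent.RootSub.Class
import Cfsg.Agent.S5032

/-! Non-degenerate classes: connectedness of the line graph and generation. -/

set_option autoImplicit false

namespace Cfsg.Agent.RootSub

open Cfsg
open scoped commutatorElement

variable {G : Type*} [Group G] {S : Set (Subgroup G)}

theorem nondeg_line (hcl : IsRootSubgroupClass S) (hnd : IsNondegenerateRootSet S)
    {A B : Subgroup G} (hA : A ∈ S) (hB : B ∈ S) (hr : IsRankOnePair A B) :
    ∃ E ∈ linePartners S A, RootCommutatorCase S B E ∧ RootCommutatorCase S A ⁅B, E⁆ ∧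
      ⁅A, ⁅B, E⁆⁆ = E := by
  obtain ⟨P, hP, hc⟩ := conj_commPartner hcl hnd.2.2 hA
  obtain ⟨E, -, -, h1, h2, h3, h4⟩ := exists_commPartner_in_line hcl.1 hA hP hB hr hc
  exact ⟨E, h1, h2, h3, h4⟩

theorem line_graph_connected (hcl : IsRootSubgroupClass S) (hnd : IsNondegenerateRootSet S) :
    IsConnectedFamily (EAdj S S) S := by
  have hS := hcl.1
  have hpart : ∀ A ∈ S, ∃ D ∈ S, IsRankOnePair A D := fun A hA =>
    conj_partner hcl hnd.2.1 hA
  have step : ∀ A B, FAdj S A B → Relation.ReflTransGen (EAdj S S) A B := by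
    rintro A B ⟨hA, hB, hr⟩
    obtain ⟨E, hE, hBE, hcK, hKE⟩ := nondeg_line hcl hnd hA hB hr
    obtain ⟨D, hD, hrD⟩ := hpart _ hBE.1
    have l1 : ⁅B, E⁆ ∈ linePartners S E := by
      have := (CommCase.line_of_commutator hS hBE.1 hA hD hrD (CommCase.symm hcK)).2.2
      rwa [Subgroup.commutator_comm, hKE] at this
    have l2 : B ∈ linePartners S ⁅B, E⁆ :=
      (CommCase.line_of_commutator hS hB hE.1.1 hA (RankOnePair_symm hr) hBE).2.2
    exact .head ⟨hA, hE.1.1, hE⟩ (.head ⟨hE.1.1, hBE.1, l1⟩ (.single ⟨hBE.1, hB, l2⟩))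
  obtain ⟨A₁, hA₁, B₁, hB₁, hne, -⟩ := hnd.1
  obtain ⟨A₂, hA₂, B₂, hB₂, hr₂⟩ := hnd.2.1
  have hF : IsConnectedFamily (FAdj S) S := (Cfsg.Agent.S5032.result hS ⟨A₁, hA₁, B₁, hB₁, hne⟩).2
    ⟨hcl.2, A₂, hA₂, fun h => (h.2 B₂).1 ⟨hA₂, hB₂, hr₂⟩⟩
  intro A hA B hB
  induction hF A hA B hB with
  | refl => exact .refl
  | tail _ h ih => exact (ih h.1).trans (step _ _ h)

theorem generated_by_line (hcl : IsRootSubgroupClass S) (hnd : IsNondegenerateRootSet S)
    {A B : Subgroup G} (hA : A ∈ S) (hB : B ∈ S) (hr : IsRankOnePair A B) :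
    (⨆ C ∈ linePartners S A, C) ⊔ B = ⊤ := by
  have hS := hcl.1
  have hpart : ∀ A ∈ S, ∃ D ∈ S, IsRankOnePair A D := fun A hA =>
    conj_partner hcl hnd.2.1 hA
  set U := (⨆ C ∈ linePartners S A, C) ⊔ B with hU
  have hΛ : ∀ C ∈ linePartners S A, C ≤ U := fun C hC =>
    (le_iSup₂ (f := fun (C : Subgroup G) (_ : C ∈ linePartners S A) => C) C hC).trans le_sup_left
  have hAU : A ≤ U := by
    obtain ⟨P, hP, hc⟩ := conj_commPartner hcl hnd.2.2 hA
    obtain ⟨hmem, -, -⟩ := CommCase.line_of_commutator hS hA hP hB hr hc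
    obtain ⟨p, hp, hp1⟩ := exists_ne_one_of_mem hS hP
    have hpne : conjBy A p ≠ A := by
      intro h
      have h1 := CommCase.sup_conj_eq_line hc hp hp1
      rw [h, sup_idem] at h1
      obtain ⟨c, hc', hc1⟩ := exists_ne_one_of_mem hS hc.1
      refine (CommCase.left_ne_commutator hS hc) (eq_of_inter hS hA hB hc.1 hr ?_ hc' hc1).symm
      rw [h1]; exact Subgroup.mem_sup_right hc'
    have hMm : conjBy A p ∈ membersIn S (A ⊔ ⁅A, P⁆) :=
      ⟨hS.conj_mem A hA p, CommCase.conjBy_le_line hc hp⟩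
    have hCm : ⁅A, P⁆ ∈ membersIn S (A ⊔ ⁅A, P⁆) := ⟨hc.1, le_sup_right⟩
    have hne : conjBy A p ≠ ⁅A, P⁆ := by
      intro h
      have h2 : conjBy ⁅A, P⁆ p⁻¹ = ⁅A, P⁆ := conjBy_of_commute fun c hc' =>
        (CommCase.comm_right hc hc' (inv_mem hp)).symm
      rw [conjBy_eq_iff, h2] at h
      exact CommCase.left_ne_commutator hS hc h
    calc A ≤ A ⊔ ⁅A, P⁆ := le_sup_left
      _ = conjBy A p ⊔ ⁅A, P⁆ := (CommCase.line_sup_eq hS hA hP hB hr hc hMm hCm hne).symm
      _ ≤ U := sup_le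
          (hΛ _ (CommCase.member_mem_linePartners hS hA hP hB hr hc hMm hpne))
          (hΛ _ (CommCase.member_mem_linePartners hS hA hP hB hr hc hCm
            (CommCase.left_ne_commutator hS hc).symm))
  have hall : ∀ F, Relation.ReflTransGen (EAdj S S) A F → ∃ u ∈ U, conjBy A u = F := by
    intro F hF
    induction hF with
    | refl => exact ⟨1, one_mem _, conjBy_one A⟩
    | @tail P Q _ h ih =>
      obtain ⟨u, hu, rfl⟩ := ih
      obtain ⟨-, hQ, hl⟩ := h
      have hl' : conjBy Q u⁻¹ ∈ linePartners S A := by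
        refine ⟨⟨hS.conj_mem Q hQ _, ?_, ?_⟩, ?_⟩
        · intro he
          exact hl.1.2.1 ((conjBy_eq_iff.1 he).trans (by rw [inv_inv]))
        · have h' := congrArg (fun H => conjBy H u⁻¹) hl.1.2.2
          simp only [conjBy_commutator, conjBy_conjBy, inv_mul_cancel, conjBy_one, conjBy_bot] at h'
          exact h'
        · have e : A ⊔ conjBy Q u⁻¹ = conjBy (conjBy A u ⊔ Q) u⁻¹ := by
            rw [conjBy_sup, conjBy_conjBy, inv_mul_cancel, conjBy_one]
          obtain ⟨-, h2, h3⟩ := hl.2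
          refine ⟨fun C hC => hC.2, ?_, ?_⟩
          · intro x hx hx1
            rw [e, mem_conjBy, inv_inv] at hx
            obtain ⟨C, hC, hxC⟩ := h2 _ hx (by simpa using hx1)
            refine ⟨conjBy C u⁻¹, ⟨hS.conj_mem C hC.1 _, ?_⟩, by rwa [mem_conjBy, inv_inv]⟩
            rw [e]; exact conjBy_le_iff.2 hC.2
          · intro C hC D hD hne
            have hmv : ∀ C ∈ membersIn S (A ⊔ conjBy Q u⁻¹),
                conjBy C u ∈ membersIn S (conjBy A u ⊔ Q) := by
              intro C hC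
              refine ⟨hS.conj_mem C hC.1 u, ?_⟩
              have := (conjBy_le_iff (g := u)).2 hC.2
              rw [e, conjBy_conjBy, mul_inv_cancel, conjBy_one] at this
              exact this
            rw [eq_bot_iff]
            rintro x ⟨hx, hx'⟩
            have h4 := h3 _ (hmv C hC) _ (hmv D hD) (fun hh => hne (conjBy_inj hh))
            have h5 : u * x * u⁻¹ ∈ conjBy C u ⊓ conjBy D u :=
              ⟨conj_mem_conjBy u hx, conj_mem_conjBy u hx'⟩
            rw [h4, Subgroup.mem_bot] at h5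
            rw [Subgroup.mem_bot]
            simpa using h5
      obtain ⟨w, hw, he⟩ := linePartner_conj hS hpart hA hB hr hl'
      refine ⟨u * w, mul_mem hu hw, ?_⟩
      rw [← conjBy_conjBy, he, conjBy_conjBy, mul_inv_cancel, conjBy_one]
  rw [eq_top_iff, ← hS.generates]
  refine iSup₂_le fun F hF => ?_
  obtain ⟨u, hu, rfl⟩ := hall F (line_graph_connected hcl hnd A hA F hF)
  exact conjBy_le_of_mem hAU hu

end Cfsg.Agent.RootSub
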