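import Cfsg.Agent.RootSub.Special
import Cfsg.Agent.RootSub.Components
import Cfsg.Agent.S5026

/-!
# Rank one pairs in degenerate sets of root subgroups

For commuting members `A`, `C` opposite to `F` an element centralizing `F` carries `C` to `A`; this
makes the pair `(A, F)` special. A pair of twins (members with the same commuting neighbours) forces
exponent at most three and an abelian action on a set of neighbourhoods.
-/

set_option autoImplicit false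

namespace Cfsg.Agent.RootSub.Degen

open Cfsg
open scoped commutatorElement

variable {G : Type*} [Group G] {S : Set (Subgroup G)}

theorem not_mem_commute {X Y : Subgroup G} {x y : G} (h : ⁅X, Y⁆ = ⊥) (hx : x ∈ X) (hy : y ∈ Y) :
    Commute x y := commutator_eq_bot_iff_forall.1 h x hx y hy

theorem rankOne_of_not_comm (hS : IsRootSubgroupSet S) (hdeg : IsDegenerateRootSet S)
    {X Y : Subgroup G} (hX : X ∈ S) (hY : Y ∈ S) (h : ⁅X, Y⁆ ≠ ⊥) : IsRankOnePair X Y :=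
  ((hS.pair X hX Y hY).resolve_left h).resolve_right (hdeg X hX Y hY)

theorem conjBy_fix {X : Subgroup G} {g : G} (h : ∀ x ∈ X, Commute g x) : conjBy X g = X :=
  conjBy_of_commute fun x hx => (h x hx).eq

theorem commutator_conj {X Y : Subgroup G} {g : G} :
    ⁅conjBy X g, conjBy Y g⁆ = ⊥ ↔ ⁅X, Y⁆ = ⊥ := by
  rw [← conjBy_commutator, conjBy_eq_bot]

/-- Commuting members `A ≠ C` opposite to `F`. -/
structure Cfg (S : Set (Subgroup G)) (A C F : Subgroup G) : Prop where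
  hS : IsRootSubgroupSet S
  deg : IsDegenerateRootSet S
  memA : A ∈ S
  memC : C ∈ S
  memF : F ∈ S
  comm : ⁅A, C⁆ = ⊥
  ne : A ≠ C
  rA : IsRankOnePair A F
  rC : IsRankOnePair C F

variable {A C F : Subgroup G} {a c s t q g : G}

theorem Cfg.symm (h : Cfg S A C F) : Cfg S C A F :=
  ⟨h.hS, h.deg, h.memC, h.memA, h.memF, by rw [Subgroup.commutator_comm]; exact h.comm, h.ne.symm,
    h.rC, h.rA⟩

theorem exists_sg (hr : IsRankOnePair A F) (ha : a ∈ A) (ha1 : a ≠ 1) : ∃ s, Spc.Sig A F a s := by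
  obtain ⟨b, hb, hb1, he⟩ := hr.cond_left a⁻¹ (inv_mem ha) (by simpa using ha1)
  rw [inv_inv] at he
  exact ⟨b, ha, ha1, hb, hb1, he⟩

theorem exists_sg' (hr : IsRankOnePair A F) (hs : s ∈ F) (hs1 : s ≠ 1) :
    ∃ a, Spc.Sig A F a s := by
  obtain ⟨a, ha, ha1, he⟩ := hr.cond_right s hs hs1
  exact ⟨a⁻¹, inv_mem ha, by simpa using ha1, hs, hs1, he.symm⟩

theorem sg_right_unique (hr : IsRankOnePair A F) (h1 : Spc.Sig A F a s) (h2 : Spc.Sig A F a t) :
    s = t :=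
  Pair.partner_unique hr h1.2.2.1 h2.2.2.1 (h1.2.2.2.2.trans h2.2.2.2.2.symm)

theorem sg_left_unique (hr : IsRankOnePair A F) (h1 : Spc.Sig A F a s) (h2 : Spc.Sig A F c s) :
    a = c := by
  have he : conjBy F a = conjBy F c := h1.2.2.2.2.symm.trans h2.2.2.2.2
  have h3 : conjBy F (c⁻¹ * a) = F := by
    rw [← conjBy_conjBy, he, conjBy_conjBy, inv_mul_cancel, conjBy_one]
  exact (inv_mul_eq_one.1 (Pair.eq_one_of_normalizes hr (mul_mem (inv_mem h2.1) h1.1) h3)).symm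

/-- Equivariance under elements centralizing `F`. -/
theorem sg_conj (hg : ∀ f ∈ F, Commute g f) (h1 : Spc.Sig A F a s) :
    Spc.Sig (conjBy A g) F (g * a * g⁻¹) s := by
  obtain ⟨ha, ha1, hs, hs1, he⟩ := h1
  refine ⟨conj_mem_conjBy g ha, by simpa using ha1, hs, hs1, ?_⟩
  have hF : conjBy F g⁻¹ = F := conjBy_fix fun f hf => (hg f hf).inv_left
  have e1 : s⁻¹ * g = g * s⁻¹ := ((hg s⁻¹ (inv_mem hs)).eq).symm
  rw [conjBy_conjBy, e1, ← conjBy_conjBy, he, conjBy_conjBy,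
    show g * a * g⁻¹ = (g * a) * g⁻¹ by rfl, ← conjBy_conjBy F g⁻¹, hF]

/-- The element carrying `C` to `A`. -/
theorem Cfg.carry (h : Cfg S A C F) (hsA : Spc.Sig A F a s) (hsC : Spc.Sig C F c s) :
    ⁅F, conjBy F (a⁻¹ * c)⁆ = ⊥ ∧ conjBy C ⁅a⁻¹ * c, s⁆ = A ∧ ∀ f ∈ F, Commute ⁅a⁻¹ * c, s⁆ f := by
  have hFF : ⁅F, conjBy F (a⁻¹ * c)⁆ = ⊥ := by
    have h1 : ⁅conjBy F a, conjBy F c⁆ = ⊥ := by
      rw [← hsA.2.2.2.2, ← hsC.2.2.2.2, commutator_conj, h.comm]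
    rw [← commutator_conj (g := a), conjBy_conjBy, mul_inv_cancel_left]
    exact h1
  set n := a⁻¹ * c with hn
  have hcc : Commute a c := not_mem_commute h.comm hsA.1 hsC.1
  have hna : n * a = c := by rw [hn, mul_assoc, ← hcc.eq, inv_mul_cancel_left]
  have hnA : conjBy A n⁻¹ = A := by
    refine conjBy_fix fun x hx => Commute.inv_left ?_
    exact Commute.mul_left (comm_of_mem h.hS h.memA (inv_mem hsA.1) hx)
      ((not_mem_commute h.comm hx hsC.1).symm)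
  refine ⟨hFF, ?_, fun f hf => ?_⟩
  · have e1 : conjBy A (n * s⁻¹ * n⁻¹) = conjBy C s⁻¹ := by
      rw [← conjBy_conjBy A n⁻¹, hnA, ← conjBy_conjBy A s⁻¹, hsA.2.2.2.2, conjBy_conjBy, hna,
        hsC.2.2.2.2]
    rw [commutatorElement_def, ← conjBy_conjBy C s⁻¹, ← e1, conjBy_conjBy,
      show n * s * n⁻¹ * (n * s⁻¹ * n⁻¹) = 1 by group, conjBy_one]
  · rw [commutatorElement_def]
    exact Commute.mul_left (not_mem_commute hFF hf (conj_mem_conjBy n hsA.2.2.1)).symm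
      (comm_of_mem h.hS h.memF (inv_mem hsA.2.2.1) hf)

theorem Cfg.exists_carry (h : Cfg S A C F) :
    ∃ q, conjBy C q = A ∧ ∀ f ∈ F, Commute q f := by
  obtain ⟨s, hs, hs1⟩ := Pair.exists_ne_one (Pair.ne_bot_right h.rA)
  obtain ⟨a, ha⟩ := exists_sg' h.rA hs hs1
  obtain ⟨c, hc⟩ := exists_sg' h.rC hs hs1
  exact ⟨_, (h.carry ha hc).2.1, (h.carry ha hc).2.2⟩

theorem Cfg.carry_sg (hq : conjBy C q = A) (hqF : ∀ f ∈ F, Commute q f)
    (hsC : Spc.Sig C F c t) : Spc.Sig A F (q * c * q⁻¹) t := hq ▸ sg_conj hqF hsC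

/-- The translations `(q c q⁻¹)⁻¹ c` move `F` to members commuting with `F`. -/
theorem Cfg.closure_comm (h : Cfg S A C F) (hq : conjBy C q = A) (hqF : ∀ f ∈ F, Commute q f)
    (hc : c ∈ C) : ⁅F, conjBy F ((q * c * q⁻¹)⁻¹ * c)⁆ = ⊥ := by
  by_cases hc1 : c = 1
  · subst hc1
    rw [show (q * 1 * q⁻¹)⁻¹ * 1 = 1 by group, conjBy_one]
    exact comm_self h.hS h.memF
  obtain ⟨t, ht⟩ := exists_sg h.rC hc hc1
  exact (h.carry (Cfg.carry_sg hq hqF ht) ht).1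

/-- An element centralizing `F` and fixing `A` centralizes `A`. -/
theorem central_A (hr : IsRankOnePair A F) (hg : conjBy A g = A) (hgF : ∀ f ∈ F, Commute g f) :
    ∀ x ∈ A, Commute g x := by
  intro x hx
  by_cases hx1 : x = 1
  · rw [hx1]; exact Commute.one_right g
  obtain ⟨t, ht⟩ := exists_sg hr hx hx1
  have h2 := sg_conj hgF ht
  rw [hg] at h2
  exact mul_inv_eq_iff_eq_mul.1 (sg_left_unique hr h2 ht)

/-- No element of `F` other than `1` moves `n = a⁻¹ c` into the centralizer of `A`. -/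
theorem Cfg.eq_one_of_commutator (h : Cfg S A C F) (ha : a ∈ A) (ha1 : a ≠ 1) (hc : c ∈ C)
    (hc1 : c ≠ 1) {b : G} (hb : b ∈ F) (hcen : ∀ x ∈ A, Commute ⁅a⁻¹ * c, b⁆ x) : b = 1 := by
  by_contra hb1
  set n := a⁻¹ * c with hn
  have hn1 : n ≠ 1 := by
    intro e
    have hac : c = a := by rw [hn, inv_mul_eq_one] at e; exact e.symm
    exact h.ne (eq_of_inter h.hS h.memA h.memF h.memC h.rA ha (hac ▸ hc) ha1).symm
  have hnA : ∀ x ∈ A, Commute n x := fun x hx =>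
    Commute.mul_left (comm_of_mem h.hS h.memA (inv_mem ha) hx)
      (not_mem_commute h.comm hx hc).symm
  have hbA : ∀ x ∈ conjBy A b⁻¹, Commute n x := by
    intro x hx
    rw [mem_conjBy, inv_inv] at hx
    have h1 : Commute (b * n⁻¹ * b⁻¹) (b * x * b⁻¹) := by
      rw [show b * n⁻¹ * b⁻¹ = n⁻¹ * ⁅n, b⁆ by rw [commutatorElement_def]; group]
      exact (hnA _ hx).inv_left.mul_left (hcen _ hx)
    have h2 := h1.map (MulAut.conj b⁻¹).toMonoidHom
    simp [MulAut.conj_apply, mul_assoc] at h2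
    exact h2
  have hA1 : conjBy A b⁻¹ ∈ centralizingMembers S (Subgroup.zpowers n) := by
    refine ⟨h.hS.conj_mem A h.memA _, fun x hx => ?_⟩
    rw [Subgroup.mem_centralizer_iff]
    rintro y ⟨k, rfl⟩
    exact ((hbA x hx).zpow_left k).eq
  rw [Cfsg.Agent.S5026.result h.hS h.deg ⟨by simpa using ha1, A, h.memA, inv_mem ha⟩
    ⟨hc1, C, h.memC, hc⟩ (not_mem_commute h.comm (inv_mem ha) hc).eq hn1] at hA1
  have hne : A ≠ conjBy A b⁻¹ := fun e =>
    hb1 (by simpa using Pair.eq_one_of_normalizes (RankOnePair_symm h.rA) (inv_mem hb) e.symm)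
  have hp := Pair.pair_of_ne h.rA Pair.left_mem_unipotents
    (Pair.unip_invariant Pair.left_mem_unipotents (Subgroup.mem_sup_right (inv_mem hb))) hne
  obtain ⟨x, hx, hx1⟩ := Pair.exists_ne_one (Pair.ne_bot_right hp)
  have hax := Subgroup.mem_centralizer_iff.1 (hA1.1.2 hx) a⁻¹ (Subgroup.mem_zpowers a⁻¹)
  exact Pair.not_commute hp (inv_mem ha) (by simpa using ha1) hx hx1 hax

theorem commutator_mul_of_central {n x y : G} (h : Commute x ⁅n, y⁆) :
    ⁅n, x * y⁆ = ⁅n, x⁆ * ⁅n, y⁆ := by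
  calc ⁅n, x * y⁆ = ⁅n, x⁆ * (x * ⁅n, y⁆ * x⁻¹) := by simp only [commutatorElement_def]; group
    _ = ⁅n, x⁆ * ⁅n, y⁆ := by rw [h.eq, mul_inv_cancel_right]

/-- The pair `(A, F)` is special. -/
theorem Cfg.special (h : Cfg S A C F) : IsSpecialRankOnePair A F := by
  have hcomAC : ∀ x ∈ A, ∀ y ∈ C, Commute x y := fun x hx y hy => not_mem_commute h.comm hx hy
  -- `σ(a⁻¹) = σ(a)⁻¹`
  have hneg : ∀ {a s : G}, Spc.Sig A F a s → Spc.Sig A F a⁻¹ s⁻¹ := by
    intro a s hsA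
    obtain ⟨ha, ha1, hs, hs1, -⟩ := id hsA
    obtain ⟨c, hsC⟩ := exists_sg' h.rC hs hs1
    obtain ⟨hc, hc1, -⟩ := id hsC
    obtain ⟨hFF, hq, hqF⟩ := h.carry hsA hsC
    obtain ⟨t, htA⟩ := exists_sg h.rA (inv_mem ha) (by simpa using ha1)
    obtain ⟨c', htC⟩ := exists_sg' h.rC htA.2.2.1 htA.2.2.2.1
    have hc' : c' = c⁻¹ := by
      have h2 := sg_left_unique h.rA (Cfg.carry_sg hq hqF htC) htA
      have hpc := sg_left_unique h.rA (Cfg.carry_sg hq hqF hsC) hsA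
      generalize ⁅a⁻¹ * c, s⁆ = p at h2 hpc
      calc c' = p⁻¹ * (p * c' * p⁻¹) * p := by group
        _ = p⁻¹ * (p * c * p⁻¹)⁻¹ * p := by rw [h2, hpc]
        _ = c⁻¹ := by group
    subst hc'
    obtain ⟨hFF', hq', hqF'⟩ := h.carry htA htC
    rw [inv_inv] at hFF' hq' hqF'
    have hn' : a * c⁻¹ = (a⁻¹ * c)⁻¹ := by
      rw [mul_inv_rev, inv_inv]; exact (hcomAC a ha c⁻¹ (inv_mem hc)).eq
    rw [hn'] at hFF' hq' hqF'
    set n := a⁻¹ * c with hn
    have hnA : conjBy A n = A := conjBy_fix fun x hx =>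
      Commute.mul_left (comm_of_mem h.hS h.memA (inv_mem ha) hx) (hcomAC x hx c hc).symm
    have hnC : conjBy C n = C := conjBy_fix fun y hy =>
      (hcomAC a⁻¹ (inv_mem ha) y hy).mul_left (comm_of_mem h.hS h.memC hc hy)
    have hnA' : conjBy A n⁻¹ = A := by rw [conjBy_eq_iff, inv_inv, hnA]
    have hcF : ∀ f ∈ F, Commute ⁅n, t⁆ f := fun f hf => by
      rw [commutatorElement_def]
      exact Commute.mul_left (not_mem_commute hFF hf (conj_mem_conjBy n htA.2.2.1)).symm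
        (comm_of_mem h.hS h.memF (inv_mem htA.2.2.1) hf)
    have e : ⁅n, t⁆ = n * ⁅n⁻¹, t⁆⁻¹ * n⁻¹ := by simp only [commutatorElement_def]; group
    have hst : ⁅n, s * t⁆ = ⁅n, s⁆ * ⁅n, t⁆ := commutator_mul_of_central (hcF s hs).symm
    have hfix : conjBy A ⁅n, s * t⁆ = A := by
      rw [hst, e]
      have e1 : conjBy A ⁅n⁻¹, t⁆⁻¹ = C := by
        rw [conjBy_eq_iff, inv_inv, hq']
      rw [← conjBy_conjBy, ← conjBy_conjBy, ← conjBy_conjBy, hnA', e1, hnC, hq]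
    have hgF : ∀ f ∈ F, Commute ⁅n, s * t⁆ f := fun f hf => by
      rw [hst]; exact (hqF f hf).mul_left (hcF f hf)
    have hst1 := h.eq_one_of_commutator ha ha1 hc hc1 (mul_mem hs htA.2.2.1)
      (central_A h.rA hfix hgF)
    rwa [eq_inv_of_mul_eq_one_right hst1] at htA
  refine ⟨h.rA, fun a ha ha1 b hb hb1 he => ?_⟩
  have h1 : Spc.Sig A F a⁻¹ b := ⟨inv_mem ha, by simpa using ha1, hb, hb1, he⟩
  have hsA := hneg h1
  rw [inv_inv] at hsA
  obtain ⟨c, hsC⟩ := exists_sg' h.rC (inv_mem hb) (by simpa using hb1)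
  obtain ⟨hc, hc1, -⟩ := id hsC
  obtain ⟨hFF, hq, hqF⟩ := h.carry hsA hsC
  set s := b⁻¹ with hs
  set n := a⁻¹ * c with hn
  set q := ⁅n, s⁆ with hqdef
  have hac : Commute a c := hcomAC a ha c hc
  have hqc : q * c * q⁻¹ = a := sg_left_unique h.rA (Cfg.carry_sg hq hqF hsC) hsA
  set u := a * (s * a * s⁻¹) * a⁻¹ with hu
  have huF : u ∈ F := by
    have h2 := conj_mem_conjBy b ha
    have hbA : Spc.Sig A F a⁻¹ s⁻¹ := by rw [hs, inv_inv]; exact h1
    rw [show b * a * b⁻¹ = s⁻¹ * a * s by rw [hs]; group] at h2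
    have h3 : s * a * s⁻¹ ∈ conjBy F a⁻¹ := by
      rw [← hbA.2.2.2.2, inv_inv]; exact conj_mem_conjBy s ha
    rw [mem_conjBy, inv_inv] at h3
    exact h3
  have hqs : Commute q s := hqF s (inv_mem hb)
  have huC : c * (s * c * s⁻¹) * c⁻¹ = u := by
    have e : q * (c * (s * c * s⁻¹) * c⁻¹) * q⁻¹ = u := by
      have e2 : q * s * q⁻¹ = s := by rw [hqs.eq, mul_inv_cancel_right]
      calc q * (c * (s * c * s⁻¹) * c⁻¹) * q⁻¹
          = (q * c * q⁻¹) * ((q * s * q⁻¹) * (q * c * q⁻¹) * (q * s * q⁻¹)⁻¹) * (q * c * q⁻¹)⁻¹ := by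
            group
        _ = u := by rw [hqc, e2]
    calc c * (s * c * s⁻¹) * c⁻¹ = q⁻¹ * (q * (c * (s * c * s⁻¹) * c⁻¹) * q⁻¹) * q := by group
      _ = q⁻¹ * u * q := by rw [e]
      _ = u := by rw [mul_assoc, ← (hqF u huF).eq, inv_mul_cancel_left]
  -- the carrying element of the inverse parameters
  have hsA' := hneg hsA
  have hsC' : Spc.Sig C F c⁻¹ s⁻¹ := by
    obtain ⟨c', hc'⟩ := exists_sg' h.rC hsA'.2.2.1 hsA'.2.2.2.1
    have h2 := sg_left_unique h.rA (Cfg.carry_sg hq hqF hc') hsA'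
    rw [← hqc] at h2
    have : c' = c⁻¹ := by
      calc c' = q⁻¹ * (q * c' * q⁻¹) * q := by group
        _ = c⁻¹ := by rw [h2]; group
    rwa [this] at hc'
  obtain ⟨hFF', hq', hqF'⟩ := h.carry hsA' hsC'
  rw [inv_inv, show a * c⁻¹ = n⁻¹ by rw [hn, mul_inv_rev, inv_inv]; exact (hcomAC a ha c⁻¹ (inv_mem hc)).eq]
    at hFF' hq' hqF'
  set q' := ⁅n⁻¹, s⁻¹⁆ with hq'def
  -- compare the two expressions
  have hcentF : ∀ x ∈ F, ∀ f ∈ F, Commute ⁅n⁻¹, x⁆ f := fun x hx f hf => by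
    rw [commutatorElement_def]
    exact Commute.mul_left (not_mem_commute hFF' hf (conj_mem_conjBy n⁻¹ hx)).symm
      (comm_of_mem h.hS h.memF (inv_mem hx) hf)
  have hns : ⁅n⁻¹, s⁆ = q'⁻¹ := by
    refine eq_inv_of_mul_eq_one_left ?_
    rw [hq'def, ← commutator_mul_of_central (hcentF s⁻¹ (inv_mem (inv_mem hb)) s (inv_mem hb)).symm,
      mul_inv_cancel, commutatorElement_one_right]
  have hmain : ⁅n⁻¹, u⁻¹⁆⁻¹ = c * ⁅n⁻¹, s⁆ * a⁻¹ := by
    have e2 : s * a * s⁻¹ = a⁻¹ * u * a := by rw [hu]; group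
    have e3 : s * c * s⁻¹ = c⁻¹ * u * c := by rw [← huC]; group
    have e1' : ⁅n⁻¹, s⁆ = n⁻¹ * ((s * a * s⁻¹)⁻¹ * (s * c * s⁻¹)) := by
      rw [commutatorElement_def, hn]; group
    have x1 : a * c⁻¹ = c⁻¹ * a := hac.inv_right.eq
    have x2 : c * a⁻¹ = a⁻¹ * c := hac.inv_left.symm.eq
    calc ⁅n⁻¹, u⁻¹⁆⁻¹ = u⁻¹ * (c⁻¹ * a) * u * (a⁻¹ * c) := by
          rw [commutatorElement_def, hn]; group
      _ = u⁻¹ * (a * c⁻¹) * u * (c * a⁻¹) := by rw [x1, x2]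
      _ = c * (n⁻¹ * ((s * a * s⁻¹)⁻¹ * (s * c * s⁻¹))) * a⁻¹ := by rw [e2, e3, hn]; group
      _ = _ := by rw [← e1']
  have hfinal : ⁅n⁻¹, s * u⁻¹⁆ = 1 := by
    have hq'a : a * q' = q' * c := by
      have hqc' : q' * c⁻¹ * q'⁻¹ = a⁻¹ :=
        sg_left_unique h.rA (Cfg.carry_sg hq' hqF' hsC') hsA'
      have : q' * c * q'⁻¹ = a := by
        calc q' * c * q'⁻¹ = (q' * c⁻¹ * q'⁻¹)⁻¹ := by group
          _ = a := by rw [hqc', inv_inv]
      rw [← this]; group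
    rw [commutator_mul_of_central (hcentF u⁻¹ (inv_mem huF) s (inv_mem hb)).symm,
      ← inv_inv ⁅n⁻¹, u⁻¹⁆, hmain, hns]
    calc q'⁻¹ * (c * q'⁻¹ * a⁻¹)⁻¹ = q'⁻¹ * (a * q') * c⁻¹ := by group
      _ = 1 := by rw [hq'a]; group
  have hu1 : s * u⁻¹ = 1 := by
    refine h.eq_one_of_commutator (a := a⁻¹) (c := c⁻¹) (inv_mem ha) (by simpa using ha1)
      (inv_mem hc) (by simpa using hc1) (mul_mem (inv_mem hb) (inv_mem huF)) ?_
    have e : a⁻¹⁻¹ * c⁻¹ = n⁻¹ := by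
      rw [inv_inv, hn, mul_inv_rev, inv_inv]; exact (hcomAC a ha c⁻¹ (inv_mem hc)).eq
    rw [e, hfinal]
    exact fun x _ => Commute.one_left x
  have hsu : s = u := mul_inv_eq_one.1 hu1
  rw [hu, hs, inv_inv] at hsu
  calc b⁻¹ * a * b = a⁻¹ * (a * (b⁻¹ * a * b) * a⁻¹) * a := by group
    _ = a⁻¹ * b⁻¹ * a := by rw [← hsu]

/-- Two twins: the neighbours commuting with them coincide. -/
def Nb (S : Set (Subgroup G)) (X : Subgroup G) : Set (Subgroup G) :=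
  {M | M ∈ S ∧ M ≠ X ∧ ⁅M, X⁆ = ⊥}

theorem Nb_conj (hS : IsRootSubgroupSet S) {X Y : Subgroup G} (g : G) (h : Nb S X = Nb S Y) :
    Nb S (conjBy X g) = Nb S (conjBy Y g) := by
  have key : ∀ X : Subgroup G, Nb S (conjBy X g) = {M | conjBy M g⁻¹ ∈ Nb S X} := by
    intro X
    ext M
    refine ⟨fun ⟨h1, h2, h3⟩ => ⟨hS.conj_mem M h1 _, fun e => h2 ?_, ?_⟩,
      fun ⟨h1, h2, h3⟩ => ⟨?_, fun e => h2 ?_, ?_⟩⟩
    · rw [← e, conjBy_conjBy, mul_inv_cancel, conjBy_one]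
    · rw [← commutator_conj (g := g), conjBy_conjBy, mul_inv_cancel, conjBy_one]; exact h3
    · have := hS.conj_mem _ h1 g; rwa [conjBy_conjBy, mul_inv_cancel, conjBy_one] at this
    · rw [e, conjBy_conjBy, inv_mul_cancel, conjBy_one]
    · rw [← commutator_conj (g := g), conjBy_conjBy, mul_inv_cancel, conjBy_one] at h3; exact h3
  rw [key, key, h]

/-- With a commuting member that is also opposite to a twin, the exponent is at most three. -/
theorem Cfg.exponent (h : Cfg S A C F) {B : Subgroup G} (hr : IsRankOnePair A B)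
    (htw : Nb S A = Nb S B) {a : G} (ha : a ∈ A) (ha1 : a ≠ 1) : a ^ 2 = 1 ∨ a ^ 3 = 1 := by
  by_cases ha2 : a ^ 2 = 1
  · exact Or.inl ha2
  right
  have hsp : Spc.SpPair A F := ⟨h.special, h.hS.commutative A h.memA, h.hS.commutative F h.memF⟩
  obtain ⟨s, hsA⟩ := exists_sg h.rA ha ha1
  obtain ⟨hs, hs1⟩ := And.intro hsA.2.2.1 hsA.2.2.2.1
  obtain ⟨c, hsC⟩ := exists_sg' h.rC hs hs1
  obtain ⟨hc, hc1, -⟩ := id hsC
  obtain ⟨hFF, hq, hqF⟩ := h.carry hsA hsC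
  set n := a⁻¹ * c with hn
  set q := ⁅n, s⁆ with hqdef
  have hqc : q * c * q⁻¹ = a := sg_left_unique h.rA (Cfg.carry_sg hq hqF hsC) hsA
  have hcomAC : ∀ x ∈ A, ∀ y ∈ C, Commute x y := fun x hx y hy => not_mem_commute h.comm hx hy
  have hac : Commute a c := hcomAC a ha c hc
  have hnA : ∀ x ∈ A, Commute n x := fun x hx =>
    Commute.mul_left (comm_of_mem h.hS h.memA (inv_mem ha) hx) (hcomAC x hx c hc).symm
  have hnC : ∀ x ∈ C, Commute n x := fun x hx =>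
    (hcomAC a⁻¹ (inv_mem ha) x hx).mul_left (comm_of_mem h.hS h.memC hc hx)
  set M := conjBy A q with hM
  have hMS : M ∈ S := h.hS.conj_mem A h.memA q
  have hAM : ⁅A, M⁆ = ⊥ := by
    rw [Subgroup.commutator_comm, hM]
    conv_lhs => rw [← hq]
    rw [hq, Subgroup.commutator_comm]
    have := (commutator_conj (g := q)).2 h.symm.comm
    rwa [hq] at this
  -- the closure identity makes `C` and `M` commute
  have hclo2 : ∀ k : G, k ∈ C → ⁅F, conjBy F ((q * k * q⁻¹)⁻¹ * k)⁆ = ⊥ := fun k hk =>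
    h.closure_comm hq hqF hk
  have hclo_n : ⁅F, conjBy F (n⁻¹)⁆ = ⊥ := by
    have := hclo2 c⁻¹ (inv_mem hc)
    rwa [show (q * c⁻¹ * q⁻¹)⁻¹ = q * c * q⁻¹ by group, hqc, show a * c⁻¹ = n⁻¹ by
      rw [hn, mul_inv_rev, inv_inv]; exact (hcomAC a ha c⁻¹ (inv_mem hc)).eq] at this
  have hclo_n2 : ⁅F, conjBy F (n⁻¹ * n⁻¹)⁆ = ⊥ := by
    have := hclo2 (c⁻¹ * c⁻¹) (mul_mem (inv_mem hc) (inv_mem hc))
    rwa [show (q * (c⁻¹ * c⁻¹) * q⁻¹)⁻¹ = (q * c * q⁻¹) * (q * c * q⁻¹) by simp [mul_assoc], hqc,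
      show a * a * (c⁻¹ * c⁻¹) = (a * c⁻¹) * (a * c⁻¹) by
        rw [mul_assoc a c⁻¹, ← mul_assoc c⁻¹ a, (hcomAC a ha c⁻¹ (inv_mem hc)).symm.eq]; group,
      show a * c⁻¹ = n⁻¹ by
        rw [hn, mul_inv_rev, inv_inv]; exact (hcomAC a ha c⁻¹ (inv_mem hc)).eq] at this
  have hCM : ⁅C, M⁆ = ⊥ := by
    have hcn : n⁻¹ * a = c⁻¹ * a * a := by rw [hn, mul_inv_rev, inv_inv]
    have hM' : M = conjBy F (n * s * (n⁻¹ * a)) := by
      rw [hM, hqdef, commutatorElement_def, ← conjBy_conjBy A s⁻¹, hsA.2.2.2.2, conjBy_conjBy,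
        mul_assoc (n * s)]
    have h1 : ⁅conjBy F c, conjBy F (n⁻¹ * a)⁆ = ⊥ := by
      rw [← commutator_conj (g := c⁻¹), conjBy_conjBy, inv_mul_cancel, conjBy_one, conjBy_conjBy]
      rwa [show c⁻¹ * (n⁻¹ * a) = n⁻¹ * n⁻¹ by
        rw [← mul_assoc, (hnC c⁻¹ (inv_mem hc)).inv_left.symm.eq, mul_assoc]
        congr 1; rw [hn, mul_inv_rev, inv_inv]]
    rw [← hsC.2.2.2.2, ← commutator_conj (g := n * s), conjBy_conjBy, conjBy_conjBy,
      mul_assoc n s s⁻¹, mul_inv_cancel, mul_one, conjBy_fix hnC, ← hM'] at h1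
    exact h1
  set m := q * a * q⁻¹ with hm
  have hmM : m ∈ M := conj_mem_conjBy q ha
  -- `g₂ = [n, q]` centralizes `A` and `F`
  set g₂ := ⁅n, q⁆ with hg₂
  have hg₂A : conjBy A g₂ = A := by
    have h1 : conjBy A q⁻¹ = C := by rw [conjBy_eq_iff, inv_inv, hq]
    rw [hg₂, commutatorElement_def, ← conjBy_conjBy, ← conjBy_conjBy, ← conjBy_conjBy, h1,
      conjBy_fix (fun x hx => (hnC x hx).inv_left), hq, conjBy_fix hnA]
  have hg₂F : ∀ f ∈ F, Commute g₂ f := by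
    intro f hf
    rw [hg₂, commutatorElement_def]
    refine Commute.mul_left ?_ (hqF f hf).inv_left
    have h1 : Commute q (n⁻¹ * f * n) := by
      have hf' : n⁻¹ * f * n ∈ conjBy F n⁻¹ := by
        have := conj_mem_conjBy n⁻¹ hf; rwa [inv_inv] at this
      rw [hqdef, commutatorElement_def]
      refine Commute.mul_left ?_ (not_mem_commute hclo_n (inv_mem hs) hf')
      have h2 : ⁅conjBy F n, conjBy F n⁻¹⁆ = ⊥ := by
        rw [← commutator_conj (g := n⁻¹), conjBy_conjBy, inv_mul_cancel, conjBy_one, conjBy_conjBy]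
        exact hclo_n2
      exact not_mem_commute h2 (conj_mem_conjBy n hs) hf'
    have h3 := h1.map (MulAut.conj n).toMonoidHom
    simpa [MulAut.conj_apply, mul_assoc] using h3
  have hmain : g₂ = a⁻¹ * c * (a⁻¹ * m) := by
    rw [hg₂, commutatorElement_def, show n * q * n⁻¹ * q⁻¹ = n * (q * n⁻¹ * q⁻¹) by group]
    congr 1
    calc q * n⁻¹ * q⁻¹ = (q * c * q⁻¹)⁻¹ * (q * a * q⁻¹) := by rw [hn]; group
      _ = a⁻¹ * m := by rw [hqc, hm]
  have hg₂n : Commute g₂ n := by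
    rw [hmain]
    have hna : Commute a n := (hnA a ha).symm
    have hnm : Commute n m :=
      (not_mem_commute hAM (inv_mem ha) hmM).mul_left (not_mem_commute hCM hc hmM)
    exact ((Commute.refl n).mul_left ((hna.inv_left).mul_left hnm.symm))
  have hqg : q * g₂ * q⁻¹ = g₂ := by
    have h1 : Commute g₂ q := by
      have hns : Commute g₂ (n * s * n⁻¹) := (hg₂n.mul_right (hg₂F s hs)).mul_right hg₂n.inv_right
      rw [hqdef, commutatorElement_def]
      exact hns.mul_right (hg₂F s⁻¹ (inv_mem hs))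
    rw [← h1.eq, mul_inv_cancel_right]
  set m₂ := q * m * q⁻¹ with hm₂
  have hconj : q * g₂ * q⁻¹ = m⁻¹ * a * (m⁻¹ * m₂) := by
    calc q * g₂ * q⁻¹
        = (q * a * q⁻¹)⁻¹ * (q * c * q⁻¹) * ((q * a * q⁻¹)⁻¹ * (q * m * q⁻¹)) := by
          rw [hmain]; group
      _ = m⁻¹ * a * (m⁻¹ * m₂) := by rw [hqc]
  rw [hconj, hmain] at hqg
  -- the three members seen by the twin
  have hAB : ⁅A, B⁆ ≠ ⊥ := Pair.commutator_ne_bot hr
  have hB : ∀ X ∈ S, X ≠ A → ⁅A, X⁆ = ⊥ → ∀ x ∈ X, ∀ y ∈ B, Commute x y := by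
    intro X hX hne hAX x hx y hy
    have h1 : X ∈ Nb S A := ⟨hX, hne, by rw [Subgroup.commutator_comm]; exact hAX⟩
    rw [htw] at h1
    exact not_mem_commute h1.2.2 hx hy
  have hMne : M ≠ A := by
    intro e
    apply h.ne
    calc A = conjBy A q⁻¹ := by rw [eq_comm, conjBy_eq_iff, inv_inv]; exact e.symm
      _ = C := by rw [conjBy_eq_iff, inv_inv, hq]
  have hqq : conjBy A (q * q) ≠ A := by
    intro e
    have hgF : ∀ f ∈ F, Commute (q * q) f := fun f hf => (hqF f hf).mul_left (hqF f hf)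
    have hq2 : ⁅n, s * s⁆ = q * q := commutator_mul_of_central (hqF s hs).symm
    have h1 := h.eq_one_of_commutator ha ha1 hc hc1 (mul_mem hs hs)
      (fun x hx => by rw [hq2]; exact central_A h.rA e hgF x hx)
    exact ha2 ((hsA.pow_eq_one hsp).2 (by rw [pow_two, h1]))
  have hAM2 : ⁅A, conjBy A (q * q)⁆ = ⊥ := by
    have h1 := (commutator_conj (g := q)).2 hCM
    rwa [hq, hM, conjBy_conjBy] at h1
  have hm₂B : ∀ y ∈ B, Commute m₂ y := by
    refine hB _ (h.hS.conj_mem A h.memA _) hqq hAM2 m₂ ?_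
    have := conj_mem_conjBy (q * q) ha
    rw [hm₂, hm]
    rwa [show q * q * a * (q * q)⁻¹ = q * (q * a * q⁻¹) * q⁻¹ by group] at this
  have ham : Commute a m := not_mem_commute hAM ha hmM
  have hcm : Commute c m := not_mem_commute hCM hc hmM
  have h3 : a * a * a = c * (m * m * m) * m₂⁻¹ := by
    have e1 : m₂ = m * (a⁻¹ * (m * (a⁻¹ * c * (a⁻¹ * m)))) := by
      rw [← hqg]; group
    have e2 : m₂ = (a⁻¹ * a⁻¹ * a⁻¹) * (c * (m * m * m)) := by
      have x1 : a⁻¹ * c = c * a⁻¹ := hac.inv_left.eq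
      have x2 : m * a⁻¹ = a⁻¹ * m := ham.inv_left.symm.eq
      have x3 : m * c = c * m := hcm.symm.eq
      have x1' : ∀ z, a⁻¹ * (c * z) = c * (a⁻¹ * z) := fun z => by rw [← mul_assoc, x1, mul_assoc]
      have x2' : ∀ z, m * (a⁻¹ * z) = a⁻¹ * (m * z) := fun z => by rw [← mul_assoc, x2, mul_assoc]
      have x3' : ∀ z, m * (c * z) = c * (m * z) := fun z => by rw [← mul_assoc, x3, mul_assoc]
      rw [e1]
      simp only [mul_assoc, x1', x2', x3', x1]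
    rw [e2]; simp [mul_assoc]
  obtain ⟨y, hy, hy1⟩ := Pair.exists_ne_one (Pair.ne_bot_right hr)
  have hy3 : Commute (a * a * a) y := by
    rw [h3]
    have hcB : Commute c y := hB C h.memC h.ne.symm h.comm c hc y hy
    have hmB : Commute m y := hB M hMS hMne hAM m hmM y hy
    exact (hcB.mul_left ((hmB.mul_left hmB).mul_left hmB)).mul_left (hm₂B y hy).inv_left
  by_contra ha3
  refine Pair.not_commute hr (mul_mem (mul_mem ha ha) ha) (fun e => ha3 ?_) hy hy1 hy3.eq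
  rw [pow_succ, pow_two]; exact e

/-- The twins act in the same abelian way on the neighbourhoods of the conjugates of `F`. -/
theorem Cfg.inf_commutator_eq_bot (hAC : Cfg S A C F) {B : Subgroup G} (hBC : Cfg S B C F)
    (htw : Nb S A = Nb S B) : A ⊓ ⁅A ⊔ B, A ⊔ B⁆ = ⊥ := by
  have hS := hAC.hS
  obtain ⟨qA, hqA, hqAF⟩ := hAC.exists_carry
  obtain ⟨qB, hqB, hqBF⟩ := hBC.exists_carry
  set w := qB * qA⁻¹ with hw
  have hwF : ∀ f ∈ F, Commute w f := fun f hf => (hqBF f hf).mul_left (hqAF f hf).inv_left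
  have hwA : conjBy A w = B := by
    rw [hw, ← conjBy_conjBy, show conjBy A qA⁻¹ = C by rw [conjBy_eq_iff, inv_inv, hqA], hqB]
  have hbase : ∀ a ∈ A, Nb S (conjBy F (w * a * w⁻¹)) = Nb S (conjBy F a) := by
    intro a ha
    by_cases ha1 : a = 1
    · subst ha1; rw [mul_one, mul_inv_cancel]
    obtain ⟨s, hs⟩ := exists_sg hAC.rA ha ha1
    have h1 := sg_conj hwF hs
    rw [hwA] at h1
    rw [← h1.2.2.2.2, ← hs.2.2.2.2]
    exact Nb_conj hS _ htw.symm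
  let Act : G → G → Prop := fun x α =>
    α ∈ A ∧ ∀ a ∈ A, Nb S (conjBy F (x * a)) = Nb S (conjBy F (α * a))
  have hcA : ∀ {x y : G}, x ∈ A → y ∈ A → Commute x y := fun hx hy =>
    comm_of_mem hS hAC.memA hx hy
  have hmul : ∀ {x y α β}, Act x α → Act y β → Act (x * y) (α * β) := by
    rintro x y α β ⟨hα, h1⟩ ⟨hβ, h2⟩
    refine ⟨mul_mem hα hβ, fun a ha => ?_⟩
    have := Nb_conj hS x (h2 a ha)
    rw [conjBy_conjBy, conjBy_conjBy] at this
    rw [mul_assoc, this, h1 _ (mul_mem hβ ha), mul_assoc]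
  have hinv : ∀ {x α}, Act x α → Act x⁻¹ α⁻¹ := by
    rintro x α ⟨hα, h1⟩
    refine ⟨inv_mem hα, fun a ha => ?_⟩
    have h2 := h1 _ (mul_mem (inv_mem hα) ha)
    rw [mul_inv_cancel_left] at h2
    have := Nb_conj hS x⁻¹ h2
    rw [conjBy_conjBy, conjBy_conjBy, inv_mul_cancel_left] at this
    exact this.symm
  have hone : Act 1 1 := ⟨one_mem A, fun a _ => rfl⟩
  have hA : ∀ a ∈ A, Act a a := fun a ha => ⟨ha, fun _ _ => rfl⟩
  have hB : ∀ b ∈ B, ∃ α, Act b α := by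
    intro b hb
    rw [← hwA, mem_conjBy] at hb
    refine ⟨w⁻¹ * b * w, hb, fun a ha => ?_⟩
    have h1 := Nb_conj hS b (hbase a ha)
    rw [conjBy_conjBy, conjBy_conjBy] at h1
    rw [← h1, ← hbase _ (mul_mem hb ha)]
    congr 2; group
  let R : Subgroup G :=
    { carrier := {x | ∃ α, Act x α}
      one_mem' := ⟨1, hone⟩
      mul_mem' := fun {x y} ⟨α, h1⟩ ⟨β, h2⟩ => ⟨α * β, hmul h1 h2⟩
      inv_mem' := fun {x} ⟨α, h1⟩ => ⟨α⁻¹, hinv h1⟩ }
  have hXR : A ⊔ B ≤ R := sup_le (fun a ha => ⟨a, hA a ha⟩) (fun b hb => hB b hb)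
  let K : Subgroup G :=
    { carrier := {x | Act x 1}
      one_mem' := hone
      mul_mem' := fun {x y} h1 h2 => by simpa using hmul h1 h2
      inv_mem' := fun {x} h1 => by simpa using hinv h1 }
  have hK : ⁅A ⊔ B, A ⊔ B⁆ ≤ K := by
    rw [Subgroup.commutator_le]
    intro x hx y hy
    obtain ⟨α, h1⟩ := hXR hx
    obtain ⟨β, h2⟩ := hXR hy
    have h3 := hmul (hmul (hmul h1 h2) (hinv h1)) (hinv h2)
    rw [show α * β * α⁻¹ * β⁻¹ = 1 by
      rw [(hcA h1.1 h2.1).eq]; group] at h3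
    rw [commutatorElement_def]
    exact h3
  rw [eq_bot_iff]
  rintro a ⟨ha, hacom⟩
  rw [Subgroup.mem_bot]
  by_contra ha1
  have h1 : Nb S (conjBy F a) = Nb S F := by
    have := (hK hacom).2 1 (one_mem A)
    rwa [mul_one, mul_one, conjBy_one] at this
  obtain ⟨s, hs⟩ := exists_sg hAC.rA ha ha1
  obtain ⟨c, hc⟩ := exists_sg' hAC.rC hs.2.2.1 hs.2.2.2.1
  have h2 : conjBy F c ∈ Nb S (conjBy F a) := by
    rw [← hs.2.2.2.2, ← hc.2.2.2.2]
    exact ⟨hS.conj_mem C hAC.memC _, fun e => hAC.ne (conjBy_inj e).symm,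
      commutator_conj.2 hAC.symm.comm⟩
  rw [h1] at h2
  refine hc.2.1 (Pair.eq_one_of_normalizes hAC.rC hc.1 ?_)
  exact Pair.eq_of_commute hAC.rC
    (Pair.unip_invariant (Pair.right_mem_unipotents hAC.rC) (Subgroup.mem_sup_left hc.1))
    (Pair.right_mem_unipotents hAC.rC) h2.2.2

end Cfsg.Agent.RootSub.Degen
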