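import Cfsg.Agent.RootSub.Degenerate
import Cfsg.Agent.RootTransv.Common
import Cfsg.Agent.S5032
import Cfsg.Agent.S5034

/-!
# Every rank one pair of a class with commuting members is special

In a degenerate class a rank one pair is either a pair of non-twins (then it is special by
`Degen.Cfg.special`) or a pair of twins, which forces exponent at most three and contradicts the
presence of an image of `SL₂` over a field with more than three elements.
-/

set_option autoImplicit false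

universe u

namespace Cfsg.Agent.RootSub.Degen

open Cfsg Cfsg.Agent.RootSub.SL2Gen
open scoped commutatorElement Matrix

variable {G : Type*} [Group G] {S : Set (Subgroup G)}

/-- In `SL₂(k)` with `|k| > 3` the element `uu 1` is a commutator of a torus element and `uu x`. -/
theorem exists_uu_one_eq_commutator {k : Type*} [Field k] (hk : 3 < ENat.card k) :
    ∃ (g : Matrix.SpecialLinearGroup (Fin 2) k) (x : k), ⁅g, uu x⁆ = uu (1 : k) := by
  obtain ⟨t, ht⟩ : ∃ t : k, t ∉ ({0, 1, -1} : Set k) := by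
    by_contra h
    push Not at h
    have h1 : (Set.univ : Set k).encard ≤ 3 := by
      refine (Set.encard_le_encard (t := {0, 1, -1}) fun x _ => h x).trans ?_
      refine (Set.encard_insert_le _ _).trans ?_
      refine (add_le_add_left ((Set.encard_insert_le _ _).trans
        (add_le_add_left (Set.encard_singleton _).le 1)) 1).trans ?_
      norm_num
    rw [Set.encard_univ] at h1
    exact absurd hk (not_lt.2 h1)
  simp only [Set.mem_insert_iff, Set.mem_singleton_iff, not_or] at ht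
  obtain ⟨ht0, ht1, ht2⟩ := ht
  have ht3 : t * t - 1 ≠ 0 := by
    intro e
    rcases mul_self_eq_one_iff.1 (sub_eq_zero.1 e) with h | h <;> contradiction
  obtain ⟨g, hg⟩ : ∃ g : Matrix.SpecialLinearGroup (Fin 2) k,
      (g : Matrix (Fin 2) (Fin 2) k) = !![t, 0; 0, t⁻¹] :=
    ⟨⟨!![t, 0; 0, t⁻¹], by simp [Matrix.det_fin_two, ht0]⟩, rfl⟩
  obtain ⟨x, hx⟩ : ∃ x : k, (t * t - 1) * x = 1 := ⟨(t * t - 1)⁻¹, mul_inv_cancel₀ ht3⟩
  refine ⟨g, x, ?_⟩
  rw [commutatorElement_def, mul_inv_eq_iff_eq_mul, mul_inv_eq_iff_eq_mul]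
  apply sl_ext <;>
    simp [Matrix.mul_apply, Fin.sum_univ_two, hg] <;> field_simp
  linear_combination hx

theorem orderOf_le_three {A : Subgroup G} (h : ∀ a ∈ A, a ≠ 1 → a ^ 2 = 1 ∨ a ^ 3 = 1)
    {a : G} (ha : a ∈ A) : 0 < orderOf a ∧ orderOf a ≤ 3 := by
  by_cases ha1 : a = 1
  · subst ha1; simp
  rcases h a ha ha1 with h2 | h3
  · refine ⟨orderOf_pos_iff.2 (isOfFinOrder_iff_pow_eq_one.2 ⟨2, by norm_num, h2⟩), ?_⟩
    exact (orderOf_le_of_pow_eq_one (by norm_num) h2).trans (by norm_num)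
  · exact ⟨orderOf_pos_iff.2 (isOfFinOrder_iff_pow_eq_one.2 ⟨3, by norm_num, h3⟩),
      orderOf_le_of_pow_eq_one (by norm_num) h3⟩

theorem special_class {G : Type u} [Group G] {S : Set (Subgroup G)} (hS : IsRootSubgroupClass S)
    (hcomm : ∃ A ∈ S, ∃ C ∈ S, A ≠ C ∧ ⁅A, C⁆ = ⊥)
    (hH : IsDegenerateRootSet S → (∀ A ∈ S, ∀ a ∈ A, 0 < orderOf a ∧ orderOf a ≤ 3) →
      ∀ A ∈ S, ∀ B ∈ rankOnePartners S A, ∃ A₀ B₀ : Subgroup G, A₀ ≤ A ∧ B₀ ≤ B ∧
        ∃ (k : Type u) (_ : Field k), 3 < ENat.card k ∧ IsPSL2PairOver k A₀ B₀)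
    {A B : Subgroup G} (hA : A ∈ S) (hB : B ∈ rankOnePartners S A) :
    IsSpecialRankOnePair A B := by
  obtain ⟨hBS, hr⟩ := id hB
  by_cases hdeg : IsDegenerateRootSet S
  swap
  · unfold IsDegenerateRootSet at hdeg
    push Not at hdeg
    exact (Cfsg.Agent.S5034.result hS ⟨hcomm, ⟨A, hA, B, hBS, hr⟩, hdeg⟩ hA hB).2
  obtain ⟨hSet, -, hconj⟩ := id hS
  have hAB : ⁅A, B⁆ ≠ ⊥ := Pair.commutator_ne_bot hr
  by_cases htw : Nb S A = Nb S B
  swap
  · -- some member commutes with exactly one of the two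
    obtain ⟨M, hM⟩ : ∃ M, ¬ (M ∈ Nb S A ↔ M ∈ Nb S B) := by
      by_contra h
      push Not at h
      exact htw (Set.ext h)
    by_cases hMA : M ∈ Nb S A
    · have hMB : ⁅M, B⁆ ≠ ⊥ := fun e => hM (iff_of_true hMA ⟨hMA.1,
        fun e' => hAB (by rw [Subgroup.commutator_comm, ← e']; exact hMA.2.2), e⟩)
      exact Cfg.special ⟨hSet, hdeg, hA, hMA.1, hBS, by rw [Subgroup.commutator_comm]; exact hMA.2.2,
        hMA.2.1.symm, hr, rankOne_of_not_comm hSet hdeg hMA.1 hBS hMB⟩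
    · have hMB : M ∈ Nb S B := by
        by_contra e
        exact hM (iff_of_false hMA e)
      have hMA' : ⁅M, A⁆ ≠ ⊥ := fun e => hMA ⟨hMB.1,
        fun e' => hAB (by rw [← e']; exact hMB.2.2), e⟩
      have h1 : IsSpecialRankOnePair B A :=
        Cfg.special ⟨hSet, hdeg, hBS, hMB.1, hA, by rw [Subgroup.commutator_comm]; exact hMB.2.2,
          hMB.2.1.symm, RankOnePair_symm hr, rankOne_of_not_comm hSet hdeg hMB.1 hA hMA'⟩
      exact (Spc.SpPair.symm ⟨h1, hSet.commutative B hBS, hSet.commutative A hA⟩).special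
  exfalso
  -- `A` has a commuting neighbour
  obtain ⟨C₀, hC₀⟩ : ∃ C, C ∈ Nb S A := by
    obtain ⟨X, hX, Y, hY, hne, hXY⟩ := hcomm
    obtain ⟨g, rfl⟩ := hconj X hX A hA
    exact ⟨conjBy Y g, hSet.conj_mem Y hY g, fun e => hne (conjBy_inj e).symm,
      commutator_conj.2 (by rw [Subgroup.commutator_comm]; exact hXY)⟩
  have hconn : IsConnectedFamily (FAdj S) S :=
    (Cfsg.Agent.S5032.result hSet ⟨A, hA, B, hBS, hr.ne⟩).2 ⟨hS.2, A, hA,
      fun hiso => (hiso.2 B).1 ⟨hA, hBS, hr⟩⟩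
  obtain ⟨C, hC, F, hF, hCF, hAF⟩ :
      ∃ C ∈ Nb S A, ∃ F ∈ S, ⁅C, F⁆ ≠ ⊥ ∧ ⁅A, F⁆ ≠ ⊥ := by
    by_contra hne
    push Not at hne
    have hclosed : ∀ X Y, Relation.ReflTransGen (FAdj S) X Y → X ∈ Nb S A → Y ∈ Nb S A := by
      intro X Y h hX
      induction h with
      | refl => exact hX
      | tail _ hstep ih =>
        obtain ⟨-, hZ, hrZ⟩ := hstep
        have h1 := hne _ ih _ hZ (Pair.commutator_ne_bot hrZ)
        refine ⟨hZ, fun e => ?_, by rw [Subgroup.commutator_comm]; exact h1⟩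
        subst e
        exact Pair.commutator_ne_bot hrZ ih.2.2
    exact (hclosed C₀ A (hconn C₀ hC₀.1 A hA) hC₀).2.1 rfl
  have hCB : C ∈ Nb S B := htw ▸ hC
  have hBF : ⁅B, F⁆ ≠ ⊥ := fun e => by
    have hFB : F ≠ B := fun e' => hCF (e' ▸ hCB.2.2)
    have hF1 : F ∈ Nb S B := ⟨hF, hFB, by rw [Subgroup.commutator_comm]; exact e⟩
    rw [← htw] at hF1
    exact hAF (by rw [Subgroup.commutator_comm]; exact hF1.2.2)
  have rC := rankOne_of_not_comm hSet hdeg hC.1 hF hCF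
  have hAC : Cfg S A C F := ⟨hSet, hdeg, hA, hC.1, hF,
    by rw [Subgroup.commutator_comm]; exact hC.2.2, hC.2.1.symm,
    rankOne_of_not_comm hSet hdeg hA hF hAF, rC⟩
  have hBC : Cfg S B C F := ⟨hSet, hdeg, hBS, hC.1, hF,
    by rw [Subgroup.commutator_comm]; exact hCB.2.2, hCB.2.1.symm,
    rankOne_of_not_comm hSet hdeg hBS hF hBF, rC⟩
  have hexp : ∀ X ∈ S, ∀ x ∈ X, 0 < orderOf x ∧ orderOf x ≤ 3 := by
    intro X hX x hx
    obtain ⟨g, rfl⟩ := hconj A hA X hX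
    rw [mem_conjBy] at hx
    have h1 := orderOf_le_three (fun a ha ha1 => hAC.exponent hr htw ha ha1) hx
    have h2 : orderOf (g⁻¹ * x * g) = orderOf x := by
      have := orderOf_injective (MulAut.conj g⁻¹).toMonoidHom (MulAut.conj g⁻¹).injective x
      simpa [MulAut.conj_apply] using this
    rwa [h2] at h1
  obtain ⟨A₀, B₀, hA₀, hB₀, k, _, hk, φ, hran, hker, hU, -⟩ := hH hdeg hexp A hA B hB
  obtain ⟨g, x, hgx⟩ := exists_uu_one_eq_commutator hk
  have hX : φ.range ≤ A ⊔ B := hran ▸ sup_le_sup hA₀ hB₀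
  have hmem : φ (uu (1 : k)) ∈ A ⊓ ⁅A ⊔ B, A ⊔ B⁆ := by
    refine Subgroup.mem_inf.2 ⟨hA₀ (hU ▸ ⟨_, Cfsg.Agent.RootTransv.mem_upper.2 ⟨1, rfl⟩, rfl⟩), ?_⟩
    rw [← hgx, map_commutatorElement]
    exact Subgroup.commutator_mem_commutator (hX ⟨g, rfl⟩) (hX ⟨uu x, rfl⟩)
  rw [hAC.inf_commutator_eq_bot hBC htw, Subgroup.mem_bot] at hmem
  exact one_ne_zero (Cfsg.Agent.RootTransv.eq_zero_of_uu_central (hker hmem))

end Cfsg.Agent.RootSub.Degen
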