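import Cfsg.Agent.RootSub.InvolSeq
import Cfsg.Agent.Gagola.Baer

/-! The classes of root involutions with the same commuting members. -/

set_option autoImplicit false

namespace Cfsg.Agent.RootSub.Inv

open Cfsg
open scoped commutatorElement

variable {G : Type*} [Group G] [Finite G] {D : Set G}

/-- Members with the same odd partners commute. -/
theorem comm_of_oddPartners_eq (hR : IsRootInvolutionSet D) (hc : IsConnectedSet (OddAdj D) D)
    {e y : G} (he : e ∈ D) (hy : y ∈ D) (hA : oddPartners D y = oddPartners D e) :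
    e * y = y * e := by
  let T : Set G := {z | z ∈ D ∧ oddPartners D z = oddPartners D e}
  have himg : ∀ g z z' : G, oddPartners D z = oddPartners D z' →
      oddPartners D (g * z * g⁻¹) = oddPartners D (g * z' * g⁻¹) := by
    intro g z z' h
    rw [oddPartners_conj hR, oddPartners_conj hR, h]
  have hTT : ∀ t ∈ T, ∀ z ∈ T, t * z * t⁻¹ ∈ T := by
    rintro t ⟨ht, hte⟩ z ⟨hz, hze⟩
    refine ⟨hR.conj_mem z hz t, ?_⟩
    rw [himg t z t (hze.trans hte.symm), mul_inv_cancel_right, hte]
  let H := Subgroup.closure T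
  have hHT : ∀ g ∈ H, ∀ z ∈ T, g * z * g⁻¹ ∈ T := by
    intro g hg
    refine Subgroup.closure_induction'' (p := fun g _ => ∀ z ∈ T, g * z * g⁻¹ ∈ T) ?_ ?_ ?_ ?_ hg
    · exact hTT
    · intro t ht z hz
      rw [inv_eq hR ht.1]
      exact hTT t ht z hz
    · intro z hz; simpa using hz
    · intro g g' _ _ h h' z hz
      rw [show g * g' * z * (g * g')⁻¹ = g * (g' * z * g'⁻¹) * g⁻¹ by group]
      exact h _ (h' z hz)
  let T' : Set ↥H := (↑) ⁻¹' T
  have hH2 : IsPGroup 2 ↥H := by
    haveI : Fact (Nat.Prime 2) := ⟨Nat.prime_two⟩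
    have h1 := Cfsg.Agent.Gagola.isPGroup_closure_of_pairwise (p := 2) T'
      (fun g d hd => hHT g g.2 d hd) ?_
    · rw [Subgroup.closure_closure_coe_preimage] at h1
      exact h1.of_equiv Subgroup.topEquiv
    · intro a ha b hb
      have hno : (b : G) ∉ oddPartners D (a : G) := by
        intro h
        have h' : (b : G) ∈ oddPartners D (b : G) := by rw [hb.2, ← ha.2]; exact h
        exact h'.2.1 rfl
      refine ((pair_isPGroup hR ha.1 hb.1 hno).comap_of_injective H.subtype
        (Subgroup.subtype_injective H)).to_le ?_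
      rw [Subgroup.closure_le]
      rintro z (rfl | rfl)
      · exact Subgroup.subset_closure (Or.inl rfl)
      · exact Subgroup.subset_closure (Or.inr rfl)
  have hcen : ∃ t ∈ T, ∀ z ∈ T, t * z = z * t := by
    haveI : Fact (Nat.Prime 2) := ⟨Nat.prime_two⟩
    obtain ⟨n, hn⟩ := Subgroup.nilpotent_iff_lowerCentralSeries.1 hH2.isNilpotent
    classical
    have hex : ∃ k, ∀ t : ↥H, (t : G) ∈ T → t ∉ (⊤ : Subgroup ↥H).lowerCentralSeries k := by
      refine ⟨n, fun t ht h => ?_⟩
      rw [hn, Subgroup.mem_bot] at h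
      exact ne_one hR ht.1 (congrArg Subtype.val h)
    have hk : Nat.find hex ≠ 0 := by
      intro h0
      have h1 := Nat.find_spec hex ⟨e, Subgroup.subset_closure ⟨he, rfl⟩⟩ ⟨he, rfl⟩
      rw [h0] at h1
      exact h1 (Subgroup.mem_top _)
    have hmin := Nat.find_min hex (m := Nat.find hex - 1) (by omega)
    push Not at hmin
    obtain ⟨t, ht, htL⟩ := hmin
    refine ⟨t, ht, fun z hz => ?_⟩
    by_contra hne
    have hno : z ∉ oddPartners D (t : G) := by
      intro h
      have h' : z ∈ oddPartners D z := by rw [hz.2, ← ht.2]; exact h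
      exact h'.2.1 rfl
    have h4 := four_of hR ht.1 hz.1 hne hno
    obtain ⟨hp, -, -, htz, -⟩ := four_facts hR ht.1 hz.1 h4
    have hzt : oddPartners D ((t : G) * ((t : G) * z) ^ 2) = oddPartners D e := by
      rw [← htz]
      have := (hTT z hz t ht).2
      rwa [inv_eq hR hz.1] at this
    have hcT : ((t : G) * z) ^ 2 ∈ T := by
      refine ⟨hp.1.1, eq_of_subset hR hc hp.1.1 he fun x hx => ?_⟩
      rcases cover hR hp.1.1 (productPartners_symm ht.1 hp) hx with h | h
      · rwa [← ht.2]
      · rwa [← hzt]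
    have hmem : (⟨((t : G) * z) ^ 2, Subgroup.subset_closure hcT⟩ : ↥H) ∈
        (⊤ : Subgroup ↥H).lowerCentralSeries (Nat.find hex) := by
      rw [show Nat.find hex = Nat.find hex - 1 + 1 by omega, Subgroup.lowerCentralSeries_succ]
      have := Subgroup.commutator_mem_commutator htL
        (Subgroup.mem_top (⟨z, Subgroup.subset_closure hz⟩ : ↥H))
      convert this using 1
      refine Subtype.ext ?_
      show ((t : G) * z) ^ 2 = (t : G) * z * (t : G)⁻¹ * z⁻¹
      rw [inv_eq hR ht.1, inv_eq hR hz.1, pow_two]; group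
    exact Nat.find_spec hex _ hcT hmem
  obtain ⟨t, ht, htc⟩ := hcen
  obtain ⟨g, hg⟩ := exists_conj hR hc ht.1 he
  have hy' : g⁻¹ * y * g ∈ T := by
    refine ⟨by simpa using hR.conj_mem y hy g⁻¹, ?_⟩
    have h1 := himg g⁻¹ y e hA
    simp only [inv_inv] at h1
    rw [h1, hg, show g⁻¹ * (g * t * g⁻¹) * g = t by group, ht.2, hg]
  have h1 := htc _ hy'
  calc e * y = g * (t * (g⁻¹ * y * g)) * g⁻¹ := by rw [hg]; group
    _ = g * ((g⁻¹ * y * g) * t) * g⁻¹ := by rw [h1]
    _ = y * e := by rw [hg]; group

/-- Members with the same odd partners have the same commuting members. -/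
theorem commute_of_oddPartners_eq (hR : IsRootInvolutionSet D) (hc : IsConnectedSet (OddAdj D) D)
    {e d y : G} (he : e ∈ D) (hd : d ∈ D) (hA : oddPartners D e = oddPartners D d) (hy : y ∈ D)
    (hyd : y * d = d * y) : y * e = e * y := by
  by_contra hye
  have hno : y ∉ oddPartners D e := fun h => by
    rw [hA] at h
    exact not_comm_of_odd hR hd h hyd.symm
  have h4 := four_of hR he hy (fun h => hye h.symm) hno
  obtain ⟨hp, hq, -, hyey, heye⟩ := four_facts hR he hy h4
  set c := (e * y) ^ 2 with hcdef
  have hcD : c ∈ D := hp.1.1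
  have hec : oddPartners D (e * c) = oddPartners D e := by
    rw [← hyey]
    nth_rw 2 [← inv_eq hR hy]
    rw [oddPartners_conj hR, hA, ← oddPartners_conj hR, hyd, mul_inv_cancel_right]
  have hcA : oddPartners D c = oddPartners D e := by
    refine eq_of_subset hR hc hcD he fun x hx => ?_
    rcases cover hR hcD (productPartners_symm he hp) hx with h | h
    · exact h
    · rwa [← hec]
  by_cases hcy : oddPartners D c = oddPartners D y
  · exact hye (comm_of_oddPartners_eq hR hc he hy (hcy.symm.trans hcA)).symm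
  obtain ⟨x, hxc, hxy⟩ := exists_not_mem hR hc hcD hy hcy
  obtain ⟨w, ⟨hwD, hxw, hcw⟩, hyw⟩ :=
    exists_triangle hR hcD (productPartners_symm hy hq) hxc hxy
  have hxe : x ∈ oddPartners D e := hcA ▸ hxc
  have hew : e * w ≠ w * e := fun h =>
    not_odd_of_partner hR hwD hxw h (oddPartners_symm he hxe)
  have hew' : w ∉ oddPartners D e := fun h => by
    rw [← hcA] at h
    exact ((mem_oddPartners_iff hR hcD).1 h).2.2 hcw
  obtain ⟨hfe, hfw, -, hwew, -⟩ := four_facts hR he hwD (four_of hR he hwD hew hew')
  obtain ⟨-, hgw, -, hwcw, -⟩ := four_facts hR hcD hwD hcw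
  rw [hyw] at hgw hwcw
  set f := (e * w) ^ 2 with hfdef
  have hfD : f ∈ D := hfe.1.1
  have hee := sq_one hR he
  have hcc := sq_one hR hcD
  have hyy := sq_one hR hy
  have hww := sq_one hR hwD
  have hce : c * e = e * c := hp.1.2.1
  have hfy : y * f * y = c * f * c * y := by
    have hyw' : y * w * y = w := by rw [hgw.1.2.1, mul_assoc, hyy, mul_one]
    calc y * f * y = y * (e * w * (e * w)) * y := by rw [hfdef, pow_two]
      _ = (y * e * y) * (y * w * y) * ((y * e * y) * (y * w * y)) := by
        rw [show y * e * y * (y * w * y) * (y * e * y * (y * w * y)) =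
          y * e * (y * y) * w * (y * y) * e * (y * y) * w * y by group, hyy]
        group
      _ = (e * c) * w * ((e * c) * w) := by rw [hyey, hyw']
      _ = (c * e) * ((w * e * w) * (w * c * w)) := by
        rw [hce, show w * e * w * (w * c * w) = w * e * (w * w) * (c * w) by group, hww]
        group
      _ = c * f * c * y := by
        rw [hwew, hwcw, show c * e * (e * f * (c * y)) = c * (e * e) * f * c * y by group, hee,
          mul_one]
  have hzf : Commute ((f * y) ^ 2) f := by
    by_cases h : f * y = y * f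
    · rw [orderOf_dvd_iff_pow_eq_one.1 (orderOf_dvd_two_of_comm hR hfD hy h)]
      exact Commute.one_left f
    · exact (four_facts hR hfD hy (four_of hR hfD hy h fun h' =>
        not_odd_of_partner hR hwD hfw hgw.1.2.1 h')).1.1.2.1
  have hz : (f * y) ^ 2 = f * (c * f * c * y) := by rw [← hfy, pow_two]; group
  have hez : e * (f * y) ^ 2 * e = (f * y) ^ 2 * c := by
    have hefe : e * f * e = f := by rw [← hfe.1.2.1, mul_assoc, hee, mul_one]
    have hece : e * c * e = c := by rw [← hce, mul_assoc, hee, mul_one]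
    rw [hz]
    calc e * (f * (c * f * c * y)) * e
        = (e * f * e) * (e * c * e) * (e * f * e) * (e * c * e) * (e * y * e) := by
          rw [show e * f * e * (e * c * e) * (e * f * e) * (e * c * e) * (e * y * e) =
            e * f * (e * e) * c * (e * e) * f * (e * e) * c * (e * e) * y * e by group, hee]
          group
      _ = f * (c * f * c * y) * c := by rw [hefe, hece, heye]; group
  have hzc : Commute ((f * y) ^ 2 * c) f := by
    have h1 := hzf.map (MulAut.conj e)
    simp only [MulAut.conj_apply, inv_eq hR he] at h1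
    rwa [hez, ← hfe.1.2.1, mul_assoc f e e, hee, mul_one] at h1
  have hcf : Commute c f := by
    have := hzf.inv_left.mul_left hzc
    rwa [inv_mul_cancel_left] at this
  rw [hcf.eq, mul_assoc f c c, hcc, mul_one] at hfy
  have h1 : y * f = f := mul_right_cancel hfy
  exact ne_one hR hy (mul_right_cancel (h1.trans (one_mul f).symm))

theorem commutingMembers_eq_iff (hR : IsRootInvolutionSet D) (hc : IsConnectedSet (OddAdj D) D)
    {e d : G} (he : e ∈ D) (hd : d ∈ D) :
    commutingMembers D d = commutingMembers D e ↔ oddPartners D d = oddPartners D e := by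
  constructor
  · intro h
    have key : ∀ {p q : G}, p ∈ D → q ∈ D → commutingMembers D p = commutingMembers D q →
        oddPartners D p ⊆ oddPartners D q := by
      intro p q hp hq h x hx
      have hqp : q * p = p * q := by
        have : q ∈ commutingMembers D p := by rw [h]; exact ⟨hq, rfl⟩
        exact this.2
      refine (mem_oddPartners_iff hR hq).2 ⟨hx.1, fun hcomm => ?_, fun h4 => ?_⟩
      · have : x ∈ commutingMembers D q := ⟨hx.1, hcomm.symm⟩
        rw [← h] at this
        exact not_comm_of_odd hR hp hx this.2.symm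
      · obtain ⟨hcq, hcx, -, -, -⟩ := four_facts hR hq hx.1 h4
        have hcp : (q * x) ^ 2 ∈ commutingMembers D p := by rw [h]; exact ⟨hcq.1.1, hcq.1.2.1⟩
        have hpp := sq_one hR hp
        refine not_odd_of_partner hR (x := p * x * p) hcq.1.1 (productPartners_symm hx.1 hcx) ?_ ?_
        · have h2 : Commute ((q * x) ^ 2) p := hcp.2
          exact ((h2.mul_right hcx.1.2.1).mul_right h2).symm.eq
        · refine ⟨sandwich_mem hR hp hx.1, fun h' => not_comm_of_odd hR hp hx ?_, ?_⟩
          · calc p * x = p * x * p * p := by rw [mul_assoc (p * x), hpp, mul_one]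
              _ = x * p := by rw [h']
          · have hodd : Odd (orderOf (x * p)) := by rw [orderOf_mul_swap]; exact hx.2.2
            have h3 : x * (p * x * p) = (x * p) ^ 2 := by rw [pow_two]; group
            rw [h3, Nat.Coprime.orderOf_pow ((Nat.coprime_two_right).2 hodd)]
            exact hodd
    exact Set.Subset.antisymm (key hd he h) (key he hd h.symm)
  · intro h
    ext z
    exact ⟨fun ⟨hz, hzd⟩ => ⟨hz, commute_of_oddPartners_eq hR hc he hd h.symm hz hzd⟩,
      fun ⟨hz, hze⟩ => ⟨hz, commute_of_oddPartners_eq hR hc hd he h hz hze⟩⟩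

/-- A product partner outside the class of `a` is a commutator `(a w)²`. -/
theorem exists_commutator (hR : IsRootInvolutionSet D) (hc : IsConnectedSet (OddAdj D) D)
    {a b : G} (ha : a ∈ D) (hb : b ∈ productPartners D a) (hbE : b ∉ sameCommutingClass D a) :
    ∃ w ∈ D, orderOf (a * w) = 4 ∧ (a * w) ^ 2 = b := by
  obtain ⟨x, hxa, hxb⟩ := exists_not_mem hR hc ha hb.1.1 fun h =>
    hbE ⟨hb.1.1, (commutingMembers_eq_iff hR hc hb.1.1 ha).2 h⟩
  obtain ⟨w, hw, hwb⟩ := exists_triangle hR ha hb hxa hxb
  exact ⟨w, hw.1, hw.2.2, hwb⟩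

end Cfsg.Agent.RootSub.Inv
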