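import Cfsg.Agent.RootSub.InvolClass
import Cfsg.Agent.Cores.Basic
import Cfsg.Prelude.Def_QuasithinSetup

/-! Normal subgroups of groups generated by root involutions. -/

set_option autoImplicit false

namespace Cfsg.Agent.RootSub.Inv

open Cfsg

variable {G : Type*} [Group G] [Finite G] {D : Set G}

/-- A set of involutions which is invariant under conjugation by its members and contains no pair
with product of odd order generates a `2`-group. -/
theorem isPGroup_two_closure (hR : IsRootInvolutionSet D) {T : Set G} (hTD : T ⊆ D)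
    (hTT : ∀ t ∈ T, ∀ z ∈ T, t * z * t⁻¹ ∈ T) (hno : ∀ t ∈ T, ∀ z ∈ T, z ∉ oddPartners D t) :
    IsPGroup 2 ↥(Subgroup.closure T) := by
  let H := Subgroup.closure T
  have hHT : ∀ g ∈ H, ∀ z ∈ T, g * z * g⁻¹ ∈ T := by
    intro g hg
    refine Subgroup.closure_induction'' (p := fun g _ => ∀ z ∈ T, g * z * g⁻¹ ∈ T) ?_ ?_ ?_ ?_ hg
    · exact hTT
    · intro t ht z hz
      rw [inv_eq hR (hTD ht)]
      exact hTT t ht z hz
    · intro z hz; simpa using hz
    · intro g g' _ _ h h' z hz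
      rw [show g * g' * z * (g * g')⁻¹ = g * (g' * z * g'⁻¹) * g⁻¹ by group]
      exact h _ (h' z hz)
  let T' : Set ↥H := (↑) ⁻¹' T
  have : Fact (Nat.Prime 2) := ⟨Nat.prime_two⟩
  have h1 := Cfsg.Agent.Gagola.isPGroup_closure_of_pairwise (p := 2) T'
    (fun g d hd => hHT g g.2 d hd) ?_
  · rw [Subgroup.closure_closure_coe_preimage] at h1
    exact h1.of_equiv Subgroup.topEquiv
  · intro a ha b hb
    refine ((pair_isPGroup hR (hTD ha) (hTD hb) (hno _ ha _ hb)).comap_of_injective H.subtype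
      (Subgroup.subtype_injective H)).to_le ?_
    rw [Subgroup.closure_le]
    rintro z (rfl | rfl)
    · exact Subgroup.subset_closure (Or.inl rfl)
    · exact Subgroup.subset_closure (Or.inr rfl)

theorem normal_eq_top_of_mem (hR : IsRootInvolutionSet D) (hc : IsConnectedSet (OddAdj D) D)
    {N : Subgroup G} (hN : N.Normal) {a : G} (ha : a ∈ D) (haN : a ∈ N) : N = ⊤ := by
  rw [eq_top_iff, ← hR.generates, Subgroup.closure_le]
  intro b hb
  obtain ⟨g, rfl⟩ := exists_conj hR hc ha hb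
  exact hN.conj_mem a haN g

/-- A proper normal subgroup is centralized by `D` modulo the `2`-core, if product partners exist. -/
theorem commutator_mem_pCore (hR : IsRootInvolutionSet D) (hc : IsConnectedSet (OddAdj D) D)
    (hX : ∀ a ∈ D, ∃ e, e ∈ productPartners D a) {N : Subgroup G} [hN : N.Normal] (hne : N ≠ ⊤)
    {a n : G} (ha : a ∈ D) (hn : n ∈ N) : a * n * a * n⁻¹ ∈ pCore 2 G := by
  have hDN : ∀ d ∈ D, d ∉ N := fun d hd h => hne (normal_eq_top_of_mem hR hc hN hd h)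
  let π := QuotientGroup.mk' N
  have hπ : ∀ g : G, π g = 1 ↔ g ∈ N := fun g => QuotientGroup.eq_one_iff g
  have key : ∀ m ∈ N, m * a * m⁻¹ ∉ oddPartners D a := by
    intro m hm hxA
    obtain ⟨e, he⟩ := hX a ha
    set x := m * a * m⁻¹
    have hx : π x = π a := by simp [x, (hπ m).2 hm]
    have hzc : ∀ z ∈ D, z * a = a * z → z * a ∈ D → x ∈ oddPartners D z → False := by
      intro z hz hza hzaD hxz
      refine hDN _ hzaD ((hπ _).1 ?_)
      have h1 : π (z * x) = π (z * a) := by rw [map_mul π z x, map_mul π z a, hx]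
      have h2 : π (z * a) ^ 2 = 1 := by
        rw [← map_pow, orderOf_dvd_iff_pow_eq_one.1 (orderOf_dvd_two_of_comm hR hz ha hza), map_one]
      have h3 : π (z * a) ^ orderOf (z * x) = 1 := by
        rw [← h1, ← map_pow, pow_orderOf_eq_one, map_one]
      obtain ⟨k, hk⟩ := hxz.2.2
      rwa [hk, pow_succ, pow_mul, h2, one_pow, one_mul] at h3
    rcases cover hR ha he hxA with h | h
    · exact hzc e he.1.1 he.1.2.1 he.2 h
    · refine hzc (e * a) he.2 ?_ ?_ h
      · rw [← mul_assoc, ← he.1.2.1]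
      · rw [mul_assoc, sq_one hR ha, mul_one]; exact he.1.1
  let T : Set G := {x | ∃ m ∈ N, x = m * a * m⁻¹}
  have hTD : T ⊆ D := by rintro x ⟨m, -, rfl⟩; exact hR.conj_mem a ha m
  have hTT : ∀ t ∈ T, ∀ z ∈ T, t * z * t⁻¹ ∈ T := by
    rintro t ⟨m, hm, rfl⟩ z ⟨m', hm', rfl⟩
    refine ⟨m * (a * (m⁻¹ * m') * a⁻¹), mul_mem hm (hN.conj_mem _ (mul_mem (inv_mem hm) hm') a), ?_⟩
    group
  have hno : ∀ t ∈ T, ∀ z ∈ T, z ∉ oddPartners D t := by
    rintro t ⟨m, hm, rfl⟩ z ⟨m', hm', rfl⟩ h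
    refine key (m⁻¹ * m') (mul_mem (inv_mem hm) hm') ?_
    have h' := conj_mem_oddPartners hR h m⁻¹
    rw [inv_inv, show m⁻¹ * (m * a * m⁻¹) * m = a by group] at h'
    rwa [show m⁻¹ * m' * a * (m⁻¹ * m')⁻¹ = m⁻¹ * (m' * a * m'⁻¹) * m by group]
  have hP := isPGroup_two_closure hR hTD hTT hno
  let P := Subgroup.closure T
  let K := P.subgroupOf N
  have hK : IsPGroup 2 ↥K := hP.comap_of_injective N.subtype (Subgroup.subtype_injective N)
  have hKn : K.Normal := by
    refine ⟨fun y hy g => ?_⟩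
    rw [Subgroup.mem_subgroupOf] at hy ⊢
    have hle : P ≤ P.comap (MulAut.conj (g : G)).toMonoidHom := by
      rw [Subgroup.closure_le]
      rintro _ ⟨m, hm, rfl⟩
      exact Subgroup.subset_closure ⟨g * m, mul_mem g.2 hm, by simp [MulAut.conj_apply, mul_assoc]⟩
    exact hle hy
  have hmemN : a * n * a * n⁻¹ ∈ N := by
    have := mul_mem (hN.conj_mem n hn a) (inv_mem hn)
    rwa [inv_eq hR ha] at this
  have hmemP : a * n * a * n⁻¹ ∈ P := by
    rw [show a * n * a * n⁻¹ = (1 * a * 1⁻¹) * (n * a * n⁻¹) by group]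
    exact mul_mem (Subgroup.subset_closure ⟨1, one_mem N, rfl⟩)
      (Subgroup.subset_closure ⟨n, hn, rfl⟩)
  have h2 : (⟨a * n * a * n⁻¹, hmemN⟩ : ↥N) ∈ pCore 2 ↥N :=
    Cfsg.Agent.Cores.le_pCore hKn hK (Subgroup.mem_subgroupOf.2 hmemP)
  exact Cfsg.Agent.Cores.map_subtype_pCore_le (Subgroup.mem_map_of_mem N.subtype h2)

theorem normal_le_twoZCore (hR : IsRootInvolutionSet D) (hc : IsConnectedSet (OddAdj D) D)
    (hX : ∀ a ∈ D, ∃ e, e ∈ productPartners D a) {N : Subgroup G} [hN : N.Normal] (hne : N ≠ ⊤) :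
    N ≤ twoZCore G := by
  intro n hn
  let π := QuotientGroup.mk' (pCore 2 G)
  rw [twoZCore, Subgroup.mem_comap, Subgroup.mem_center_iff]
  intro q
  obtain ⟨g, rfl⟩ := QuotientGroup.mk'_surjective (pCore 2 G) q
  have hle : Subgroup.closure D ≤ (Subgroup.centralizer {π n}).comap π := by
    rw [Subgroup.closure_le]
    intro a ha
    rw [SetLike.mem_coe, Subgroup.mem_comap, Subgroup.mem_centralizer_singleton_iff]
    have h1 : π (a * n * a * n⁻¹) = 1 :=
      (QuotientGroup.eq_one_iff _).2 (commutator_mem_pCore hR hc hX hne ha hn)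
    have h2 : π a * π a = 1 := by rw [← map_mul, sq_one hR ha, map_one]
    simp only [map_mul, map_inv, mul_inv_eq_one] at h1
    calc π a * π n = π a * π n * (π a * π a) := by rw [h2, mul_one]
      _ = π n * π a := by rw [← mul_assoc, h1]
  rw [hR.generates] at hle
  exact (Subgroup.mem_centralizer_singleton_iff.1 (hle (Subgroup.mem_top g)))

theorem sq_not_mem_twoZCore (hR : IsRootInvolutionSet D) {a b : G} (ha : a ∈ D)
    (hb : b ∈ oddPartners D a) : (a * b) ^ 2 ∉ twoZCore G := by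
  intro h
  haveI : Fact (Nat.Prime 2) := ⟨Nat.prime_two⟩
  rw [twoZCore, Subgroup.mem_comap, Subgroup.mem_center_iff] at h
  let π := QuotientGroup.mk' (pCore 2 G)
  have haa : π a * π a = 1 := by rw [← map_mul, sq_one hR ha, map_one]
  have h1 : π ((a * b) ^ 2) = π (((a * b) ^ 2)⁻¹) := by
    have hinv : a * (a * b) ^ 2 * a = ((a * b) ^ 2)⁻¹ := by
      rw [pow_two, show a * (a * b * (a * b)) * a = (a * a) * (b * a) * (b * a) by group,
        sq_one hR ha, one_mul, mul_inv_rev, mul_inv_rev, inv_eq hR ha, inv_eq hR hb.1]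
    calc π ((a * b) ^ 2) = π ((a * b) ^ 2) * (π a * π a) := by rw [haa, mul_one]
      _ = π a * π ((a * b) ^ 2) * π a := by rw [← mul_assoc, h (π a)]
      _ = π (((a * b) ^ 2)⁻¹) := by rw [← map_mul, ← map_mul, hinv]
  have h4 : (a * b) ^ 4 ∈ pCore 2 G := by
    rw [← QuotientGroup.eq_one_iff]
    show π ((a * b) ^ 4) = 1
    rw [show (a * b) ^ 4 = (a * b) ^ 2 * (a * b) ^ 2 by rw [← pow_add], map_mul]
    nth_rw 2 [h1]
    rw [map_inv, mul_inv_cancel]
  obtain ⟨k, hk⟩ := Cfsg.Agent.Cores.pCore_isPGroup (p := 2) (G := G) ⟨_, h4⟩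
  have h5 : ((a * b) ^ 4) ^ 2 ^ k = 1 := congrArg Subtype.val hk
  rw [← pow_mul] at h5
  have hdvd := orderOf_dvd_of_pow_eq_one h5
  have hco : Nat.Coprime (orderOf (a * b)) 2 := (Nat.coprime_two_right).2 hb.2.2
  have h6 : orderOf (a * b) = 1 :=
    ((hco.pow_right 2).mul_right (hco.pow_right k)).eq_one_of_dvd (by simpa using hdvd)
  exact hb.2.1 (eq_of_mul_eq_one hR ha (orderOf_eq_one_iff.1 h6)).symm

end Cfsg.Agent.RootSub.Inv
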