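import Cfsg.Agent.RootSub.Involutions

/-!
# The commutator sequence of a pair of involutions on a translation group

For a root involution `a`, a product partner `b` of `a` and an odd partner `x` of `a` which is
not an odd partner of `b`, the iterated commutators of `b` with `x` and `a` generate an abelian
group on which `a x` has no fixed point; hence `b` is itself such a commutator.
-/

set_option autoImplicit false

namespace Cfsg.Agent.RootSub.Inv

open Cfsg

variable {G : Type*} [Group G] {D : Set G}

/-- The alternating pair of involutions. -/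
def altPair (a x : G) (n : ℕ) : G := if n % 2 = 0 then a else x

/-- The commutator sequence. -/
def commSeq (a x b : G) : ℕ → G
  | 0 => (x * b) ^ 2
  | n + 1 => (altPair a x n * commSeq a x b n) ^ 2

variable {a x b : G}

theorem altPair_congr {i j : ℕ} (h : i % 2 = j % 2) : altPair a x i = altPair a x j := by
  simp [altPair, h]

theorem altPair_even {n : ℕ} : altPair a x (2 * n) = a := by simp [altPair]

theorem altPair_odd {n : ℕ} : altPair a x (2 * n + 1) = x := by simp [altPair]

/-- The properties of the even members of the sequence. -/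
def EvenProp (D : Set G) (a x w : G) : Prop :=
  w ∈ D ∧ x ∈ productPartners D w ∧ orderOf (a * w) = 4

theorem evenProp_step (hR : IsRootInvolutionSet D) (ha : a ∈ D) (hx : x ∈ oddPartners D a)
    {g : G} (hg : g ∈ productPartners D a) (hgx : x ∉ oddPartners D g) :
    EvenProp D a x ((g * x) ^ 2) := by
  have hgD : g ∈ D := hg.1.1
  have h4 := four_of hR hgD hx.1 (fun h => not_comm_partner hR ha hg hx h.symm) hgx
  obtain ⟨hp, hq, -, -, -⟩ := four_facts hR hgD hx.1 h4
  have hxp := productPartners_symm hx.1 hq
  refine ⟨hp.1.1, hxp, four_of hR ha hp.1.1 ?_ ?_⟩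
  · exact fun h => not_odd_of_partner hR hp.1.1 hxp h (oddPartners_symm ha hx)
  · exact fun h => not_odd_of_partner hR hgD hp hg.1.2.1.symm (oddPartners_symm ha h)

theorem evenProp_next (hR : IsRootInvolutionSet D) (ha : a ∈ D) {w : G}
    (hw : EvenProp D a x w) : (a * w) ^ 2 ∈ productPartners D a ∧
      x ∉ oddPartners D ((a * w) ^ 2) := by
  obtain ⟨hwD, hxw, h4⟩ := hw
  obtain ⟨hp, hq, -, -, -⟩ := four_facts hR ha hwD h4
  exact ⟨hp, fun h => not_odd_of_partner hR hwD hq hxw.1.2.1 h⟩

theorem evenProp_seq (hR : IsRootInvolutionSet D) (ha : a ∈ D) (hx : x ∈ oddPartners D a)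
    (hb : b ∈ productPartners D a) (hxb : x ∉ oddPartners D b) :
    ∀ n, EvenProp D a x (commSeq a x b (2 * n)) := by
  intro n
  induction n with
  | zero =>
    have h4 := four_of hR hb.1.1 hx.1 (fun h => not_comm_partner hR ha hb hx h.symm) hxb
    have := evenProp_step hR ha hx hb hxb
    rw [(four_facts hR hb.1.1 hx.1 h4).2.2.1] at this
    exact this
  | succ n ih =>
    obtain ⟨hg, hgx⟩ := evenProp_next hR ha ih
    have h4 := four_of hR hg.1.1 hx.1 (fun h => not_comm_partner hR ha hg hx h.symm) hgx
    have := evenProp_step hR ha hx hg hgx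
    rw [(four_facts hR hg.1.1 hx.1 h4).2.2.1] at this
    show EvenProp D a x (commSeq a x b (2 * n + 1 + 1))
    rw [commSeq, altPair_odd, commSeq, altPair_even]
    exact this

/-- The abstract properties of the sequence: each member is moved to the product with the next one
by one involution of the pair and fixed by the other. -/
structure IsAltSeq (u v : ℕ → G) : Prop where
  congr : ∀ i j, i % 2 = j % 2 → u i = u j
  invol : ∀ n, u n * u n = 1
  move : ∀ n, u n * v n * u n = v n * v (n + 1)
  fix : ∀ n, Commute (u (n + 1)) (v n)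
  adj : ∀ n, Commute (v n) (v (n + 1))
  sq : ∀ n, v n * v n = 1

theorem IsAltSeq.conj_comm {u v : ℕ → G} (h : IsAltSeq u v) (k : ℕ) {p q : G}
    (hpq : Commute p q) : Commute (u k * p * u k) (u k * q * u k) := by
  have hi : (u k)⁻¹ = u k := inv_eq_of_mul_eq_one_right (h.invol k)
  have := hpq.map (MulAut.conj (u k))
  simpa [MulAut.conj_apply, hi] using this

theorem IsAltSeq.fixed {u v : ℕ → G} (h : IsAltSeq u v) {k i : ℕ} (hk : k % 2 ≠ i % 2) :
    u k * v i * u k = v i := by
  rw [h.congr k (i + 1) (by omega), (h.fix i).eq, mul_assoc, h.invol, mul_one]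

theorem IsAltSeq.commute {u v : ℕ → G} (h : IsAltSeq u v) :
    ∀ d i, Commute (v i) (v (i + d)) := by
  intro d
  induction d using Nat.strong_induction_on with
  | _ d ih =>
    intro i
    rcases d with _ | _ | d
    · exact Commute.refl _
    · exact h.adj i
    · set j := i + (d + 1) with hj
      have hd1 : Commute (v i) (v j) := ih (d + 1) (by omega) i
      show Commute (v i) (v (i + (d + 2)))
      rw [show i + (d + 2) = j + 1 by omega]
      have hc := h.conj_comm j hd1
      rw [h.move j] at hc
      have hcancel : ∀ {z : G}, Commute z (v j) → Commute z (v j * v (j + 1)) →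
          Commute z (v (j + 1)) := by
        intro z hz hz'
        have := hz.mul_right hz'
        rwa [← mul_assoc, h.sq, one_mul] at this
      by_cases hp : j % 2 = i % 2
      · rw [h.congr j i hp, h.move i] at hc
        have h1 : Commute (v (i + 1)) (v j) := by
          have := ih d (by omega) (i + 1)
          rwa [show i + 1 + d = j by omega] at this
        have h2 : Commute (v (i + 1)) (v (j + 1)) := by
          have := ih (d + 1) (by omega) (i + 1)
          rwa [show i + 1 + (d + 1) = j + 1 by omega] at this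
        have h3 := hc.mul_left (h1.mul_right h2)
        rw [mul_assoc, h.sq, mul_one] at h3
        exact hcancel hd1 h3
      · rw [h.fixed hp] at hc
        exact hcancel hd1 hc

theorem IsAltSeq.commute' {u v : ℕ → G} (h : IsAltSeq u v) (i j : ℕ) : Commute (v i) (v j) := by
  rcases le_total i j with hij | hij
  · have := h.commute (j - i) i
    rwa [Nat.add_sub_cancel' hij] at this
  · have := h.commute (i - j) j
    rw [Nat.add_sub_cancel' hij] at this
    exact this.symm

/-- The norm of a point under `r = p ∘ q` vanishes on commutators of `p`-fixed or `q`-fixed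
points; so the only point of the generated group fixed by both is `1`. -/
theorem norm_trick {Q : Type*} [CommGroup Q] (hQ : ∀ z : Q, z * z = 1) (p q : Q →* Q)
    (hq : ∀ z, q (q z) = z) (m : ℕ) (hm : Odd m) (hr : ∀ z, ((p.comp q) : Q → Q)^[m] z = z)
    (S : Set Q) (hS : Subgroup.closure S = ⊤)
    (hgen : ∀ z ∈ S, ∃ y, z = p y * y ∧ q y = y ∨ z = q y * y ∧ p y = y)
    {z : Q} (hpz : p z = z) (hqz : q z = z) : z = 1 := by
  let r : Q → Q := ((p.comp q) : Q → Q)
  let N : Q →* Q :=
    { toFun := fun z => ∏ i ∈ Finset.range m, r^[i] z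
      map_one' := Finset.prod_eq_one fun i _ => iterate_map_one (p.comp q) i
      map_mul' := fun y z => by
        rw [← Finset.prod_mul_distrib]
        exact Finset.prod_congr rfl fun i _ => iterate_map_mul (p.comp q) i y z }
  have hN : ∀ y, N (r y) = N y := by
    intro y
    show ∏ i ∈ Finset.range m, r^[i] (r y) = ∏ i ∈ Finset.range m, r^[i] y
    have h1 := Finset.prod_range_succ' (fun i => r^[i] y) m
    rw [Finset.prod_range_succ, hr y, Function.iterate_zero_apply] at h1
    simpa only [Function.iterate_succ_apply] using (mul_right_cancel h1).symm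
  have hpq : ∀ y, N (p y) = N (q y) := by
    intro y
    have h1 := hN (q y)
    rwa [show r (q y) = p (q (q y)) from rfl, hq] at h1
  have hker : ∀ y, N y = 1 := by
    have : Subgroup.closure S ≤ N.ker := by
      rw [Subgroup.closure_le]
      intro s hs
      rw [SetLike.mem_coe, MonoidHom.mem_ker]
      obtain ⟨y, ⟨rfl, hy⟩ | ⟨rfl, hy⟩⟩ := hgen s hs
      · rw [map_mul, hpq, hy, hQ]
      · rw [map_mul, ← hpq, hy, hQ]
    rw [hS] at this
    exact fun y => MonoidHom.mem_ker.1 (this (Subgroup.mem_top y))
  have hfix : ∀ i, r^[i] z = z := by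
    intro i
    induction i with
    | zero => rfl
    | succ i ih =>
      rw [Function.iterate_succ_apply', ih]
      show p (q z) = z
      rw [hqz, hpz]
  have h1 := hker z
  have h2 : N z = z ^ m := by
    show ∏ i ∈ Finset.range m, r^[i] z = z ^ m
    simp [hfix]
  obtain ⟨k, rfl⟩ := hm
  rw [h2, pow_succ, pow_mul, pow_two, hQ, one_pow, one_mul] at h1
  exact h1

/-- A product partner `b` of `a` which is not opposite to some odd partner `x` of `a` is a
commutator of `a` with a member commuting with `x`. -/
theorem exists_triangle [Finite G] (hR : IsRootInvolutionSet D) (ha : a ∈ D)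
    (hb : b ∈ productPartners D a) (hx : x ∈ oddPartners D a) (hxb : x ∉ oddPartners D b) :
    ∃ w, EvenProp D a x w ∧ (a * w) ^ 2 = b := by
  have hbD : b ∈ D := hb.1.1
  have hba : b * a = a * b := hb.1.2.1
  have hxD : x ∈ D := hx.1
  set u := altPair a x with hu
  set v := commSeq a x b with hv
  have hW := evenProp_seq hR ha hx hb hxb
  have hv1 : ∀ n, v (n + 1) = (u n * v n) ^ 2 := fun n => rfl
  have hfour : ∀ n, v n ∈ D ∧ orderOf (u n * v n) = 4 ∧ Commute (u (n + 1)) (v n) := by
    intro n
    rcases Nat.even_or_odd' n with ⟨k, rfl | rfl⟩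
    · obtain ⟨h1, h2, h3⟩ := hW k
      rw [hu, altPair_even, altPair_odd]
      exact ⟨h1, h3, h2.1.2.1⟩
    · obtain ⟨hg, hgx⟩ := evenProp_next hR ha (hW k)
      have e : v (2 * k + 1) = (a * v (2 * k)) ^ 2 := by rw [hv1, hu, altPair_even]
      rw [← e] at hg hgx
      refine ⟨hg.1.1, ?_, ?_⟩
      · rw [hu, altPair_odd, orderOf_mul_swap]
        exact four_of hR hg.1.1 hxD (fun h => not_comm_partner hR ha hg hx h.symm) hgx
      · rw [show 2 * k + 1 + 1 = 2 * (k + 1) by ring, hu, altPair_even]
        exact hg.1.2.1.symm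
  have huD : ∀ n, u n ∈ D := by
    intro n
    rcases Nat.even_or_odd' n with ⟨k, rfl | rfl⟩
    · rw [hu, altPair_even]; exact ha
    · rw [hu, altPair_odd]; exact hxD
  have hseq : IsAltSeq u v :=
    { congr := fun i j h => altPair_congr h
      invol := fun n => sq_one hR (huD n)
      move := fun n => by
        rw [hv1]; exact (four_facts hR (huD n) (hfour n).1 (hfour n).2.1).2.2.2.2
      fix := fun n => (hfour n).2.2
      adj := fun n => by
        rw [hv1]; exact (four_facts hR (huD n) (hfour n).1 (hfour n).2.1).2.1.1.2.1.symm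
      sq := fun n => sq_one hR (hfour n).1 }
  have hxb4 : orderOf (x * b) = 4 := by
    rw [orderOf_mul_swap]
    exact four_of hR hbD hxD (fun h => not_comm_partner hR ha hb hx h.symm) hxb
  obtain ⟨-, hv0b, -, hbxb, -⟩ := four_facts hR hxD hbD hxb4
  have hbv : ∀ n, Commute b (v n) := by
    intro n
    induction n with
    | zero => exact hv0b.1.2.1.symm
    | succ n ih =>
      rw [hv1]
      rcases Nat.even_or_odd' n with ⟨k, rfl | rfl⟩
      · rw [hu, altPair_even]
        exact ((show Commute b a from hba).mul_right ih).pow_right 2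
      · rw [hu, altPair_odd]
        have hc : Commute (v 0) (v (2 * k + 1)) := hseq.commute' _ _
        have hx0 : Commute x (v 0) := by
          have := (hfour 0).2.2
          rwa [show u (0 + 1) = x from altPair_odd (n := 0)] at this
        have hbb := sq_one hR hbD
        have hg : b * v (2 * k + 1) * b = v (2 * k + 1) := by
          rw [ih.eq, mul_assoc, hbb, mul_one]
        have hbxb' : b * x * b = x * v 0 := hbxb
        have key : b * (x * v (2 * k + 1)) * b = x * v 0 * v (2 * k + 1) := by
          calc b * (x * v (2 * k + 1)) * b = (b * x * b) * (b * v (2 * k + 1) * b) := by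
                rw [show b * x * b * (b * v (2 * k + 1) * b) =
                  b * x * (b * b) * (v (2 * k + 1) * b) by group, hbb]
                group
            _ = x * v 0 * v (2 * k + 1) := by rw [hbxb', hg]
        have h2 : b * ((x * v (2 * k + 1)) ^ 2) * b = (x * v (2 * k + 1)) ^ 2 := by
          have hsq : ∀ z, (b * z * b) ^ 2 = b * z ^ 2 * b := fun z => by
            rw [pow_two, pow_two, show b * z * b * (b * z * b) = b * z * (b * b) * (z * b) by group,
              hbb]
            group
          rw [← hsq, key]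
          have h3 : x * v 0 * v (2 * k + 1) = v 0 * (x * v (2 * k + 1)) := by
            rw [hx0.eq]; group
          have h4 : Commute (v 0) (x * v (2 * k + 1)) := hx0.symm.mul_right hc
          rw [h3, h4.mul_pow, pow_two (v 0), hseq.sq, one_mul]
        show b * _ = _ * b
        conv_rhs => rw [← h2]
        rw [mul_assoc _ b b, hbb, mul_one]
  let Q := Subgroup.closure (Set.range v)
  have hvQ : ∀ n, v n ∈ Q := fun n => Subgroup.subset_closure ⟨n, rfl⟩
  have hQc : ∀ y ∈ Q, ∀ z ∈ Q, y * z = z * y := by
    have h1 : Q ≤ Subgroup.centralizer (Q : Set G) := by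
      rw [Subgroup.closure_le]
      rintro _ ⟨i, rfl⟩
      rw [SetLike.mem_coe, Subgroup.mem_centralizer_iff]
      intro y hy
      have h2 : Q ≤ Subgroup.centralizer {v i} := by
        rw [Subgroup.closure_le]
        rintro _ ⟨j, rfl⟩
        exact Subgroup.mem_centralizer_singleton_iff.2 (hseq.commute' j i).eq
      exact Subgroup.mem_centralizer_singleton_iff.1 (h2 hy)
    exact fun y hy z hz => Subgroup.mem_centralizer_iff.1 (h1 hz) y hy
  have hconjQ : ∀ p, p * p = 1 → (∀ n, p * v n * p ∈ Q) → ∀ y ∈ Q, p * y * p ∈ Q := by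
    intro p hp hgen
    have hle : Q ≤ Q.comap (MulAut.conj p).toMonoidHom := by
      rw [Subgroup.closure_le]
      rintro _ ⟨n, rfl⟩
      have := hgen n
      simpa [MulAut.conj_apply, inv_eq_of_mul_eq_one_right hp] using this
    intro y hy
    simpa [MulAut.conj_apply, inv_eq_of_mul_eq_one_right hp] using hle hy
  have huQ : ∀ k, ∀ y ∈ Q, u k * y * u k ∈ Q := by
    intro k
    refine hconjQ _ (hseq.invol k) fun n => ?_
    by_cases h : k % 2 = n % 2
    · rw [hseq.congr k n h, hseq.move]; exact mul_mem (hvQ _) (hvQ _)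
    · rw [hseq.fixed h]; exact hvQ _
  have haQ : ∀ y ∈ Q, a * y * a ∈ Q := huQ 0
  have hxQ : ∀ y ∈ Q, x * y * x ∈ Q := huQ 1
  have hbQ : b ∈ Q := by
    let M := Subgroup.normalizer (Q : Set G)
    have hmemM : ∀ p, p * p = 1 → (∀ y ∈ Q, p * y * p ∈ Q) → p ∈ M := by
      intro p hp hq
      rw [Subgroup.mem_normalizer_iff]
      intro y
      rw [inv_eq_of_mul_eq_one_right hp]
      refine ⟨hq y, fun h => ?_⟩
      have := hq _ h
      rwa [show p * (p * y * p) * p = (p * p) * y * (p * p) by group, hp, one_mul, mul_one] at this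
    have haM := hmemM a (sq_one hR ha) haQ
    have hxM := hmemM x (sq_one hR hxD) hxQ
    have hbM := hmemM b (sq_one hR hbD) (hconjQ b (sq_one hR hbD) fun n => by
      rw [(hbv n).eq, mul_assoc, sq_one hR hbD, mul_one]; exact hvQ n)
    haveI : (Q.subgroupOf M).Normal := Subgroup.normal_in_normalizer
    let π := QuotientGroup.mk' (Q.subgroupOf M)
    let a' : ↥M := ⟨a, haM⟩
    let x' : ↥M := ⟨x, hxM⟩
    let b' : ↥M := ⟨b, hbM⟩
    have hBB : π b' * π b' = 1 := by
      rw [← map_mul, show b' * b' = 1 from Subtype.ext (sq_one hR hbD), map_one]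
    have hBA : Commute (π b') (π a') :=
      (show Commute b' a' from Subtype.ext hba).map π
    have hXX : π x' * π x' = 1 := by
      rw [← map_mul, show x' * x' = 1 from Subtype.ext (sq_one hR hxD), map_one]
    have hXB : (π x' * π b') * (π x' * π b') = 1 := by
      rw [← map_mul, ← map_mul]
      refine (QuotientGroup.eq_one_iff _).2 (Subgroup.mem_subgroupOf.2 ?_)
      show x * b * (x * b) ∈ Q
      rw [← pow_two]; exact hvQ 0
    have hBX : Commute (π b') (π x') := by
      show π b' * π x' = π x' * π b'
      calc π b' * π x' = (π x' * π x') * (π b' * π x') * (π b' * π b') := by rw [hXX, hBB]; group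
        _ = π x' * ((π x' * π b') * (π x' * π b')) * π b' := by group
        _ = π x' * π b' := by rw [hXB, mul_one]
    have hm : (π a' * π x') ^ orderOf (a * x) = 1 := by
      rw [← map_mul, ← map_pow, show (a' * x') ^ orderOf (a * x) = 1 from
        Subtype.ext (pow_orderOf_eq_one (a * x)), map_one]
    have hm' : (π b' * π a' * π x') ^ orderOf (b * a * x) = 1 := by
      rw [← map_mul, ← map_mul, ← map_pow, show (b' * a' * x') ^ orderOf (b * a * x) = 1 from
        Subtype.ext (pow_orderOf_eq_one (b * a * x)), map_one]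
    have hodd : Odd (orderOf (b * a * x)) := ((cover hR ha hb hx).resolve_left hxb).2.2
    have hBpow : ∀ {k : ℕ}, Odd k → π b' ^ k = π b' := by
      rintro k ⟨j, rfl⟩
      rw [pow_succ, pow_mul, pow_two, hBB, one_pow, one_mul]
    rw [mul_assoc, (hBA.mul_right hBX).mul_pow, hBpow hodd] at hm'
    have hB : π b' = 1 := by
      rw [← hBpow hx.2.2, eq_inv_of_mul_eq_one_left hm', inv_pow, ← pow_mul, mul_comm, pow_mul, hm,
        one_pow, inv_one]
    exact Subgroup.mem_subgroupOf.1 ((QuotientGroup.eq_one_iff b').1 hB)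
  letI : CommGroup ↥Q :=
    { (inferInstance : Group ↥Q) with
      mul_comm := fun y z => Subtype.ext (hQc _ y.2 _ z.2) }
  let mkConj : (p : G) → p * p = 1 → (∀ y ∈ Q, p * y * p ∈ Q) → (↥Q →* ↥Q) := fun p hp hq =>
    { toFun := fun y => ⟨p * (y : G) * p, hq _ y.2⟩
      map_one' := Subtype.ext (by simp [hp])
      map_mul' := fun y z => Subtype.ext (by
        show p * ((y : G) * z) * p = p * y * p * (p * z * p)
        rw [show p * (y : G) * p * (p * z * p) = p * y * (p * p) * (z * p) by group, hp]
        group) }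
  let P := mkConj a (sq_one hR ha) haQ
  let X := mkConj x (sq_one hR hxD) hxQ
  have hP : ∀ y : ↥Q, ((P y : ↥Q) : G) = a * y * a := fun y => rfl
  have hX : ∀ y : ↥Q, ((X y : ↥Q) : G) = x * y * x := fun y => rfl
  have hinv : ∀ y : ↥Q, y * y = 1 := by
    intro y
    obtain ⟨y, hy⟩ := y
    refine Subtype.ext ?_
    show y * y = 1
    induction hy using Subgroup.closure_induction with
    | mem z hz => obtain ⟨n, rfl⟩ := hz; exact hseq.sq n
    | one => exact one_mul 1
    | mul z z' hz hz' h h' =>
      rw [show z * z' * (z * z') = z * (z' * z) * z' by group, hQc z' hz' z hz,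
        show z * (z * z') * z' = (z * z) * (z' * z') by group, h, h', one_mul]
    | inv z _ h => rw [← mul_inv_rev, h, inv_one]
  have hstep : ∀ n, u n * v n * u n * v n = v (n + 1) := by
    intro n
    rw [hseq.move, mul_assoc, ← (hseq.adj n).eq, ← mul_assoc, hseq.sq, one_mul]
  have htriv : ∀ z : ↥Q, P z = z → X z = z → z = 1 := by
    intro z h1 h2
    refine norm_trick hinv P X (fun y => Subtype.ext ?_) (orderOf (a * x)) hx.2.2 (fun y => ?_)
      _ (Subgroup.closure_closure_coe_preimage (k := Set.range v)) ?_ h1 h2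
    · rw [hX, hX, show x * (x * (y : G) * x) * x = (x * x) * y * (x * x) by group,
        sq_one hR hxD, one_mul, mul_one]
    · have : ∀ i y, (((((P.comp X) : ↥Q → ↥Q)^[i] y : ↥Q)) : G) =
          (a * x) ^ i * y * ((a * x) ^ i)⁻¹ := by
        intro i
        induction i with
        | zero => intro y; simp
        | succ i ih =>
          intro y
          rw [Function.iterate_succ_apply', MonoidHom.coe_comp, Function.comp_apply, hP, hX]
          simp only [MonoidHom.coe_comp] at ih
          rw [ih, pow_succ' (a * x) i, mul_inv_rev, mul_inv_rev, inv_eq hR ha, inv_eq hR hxD]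
          group
      exact Subtype.ext (by rw [this, pow_orderOf_eq_one]; simp)
    · rintro ⟨z, hz⟩ ⟨n, rfl⟩
      rcases n with _ | n
      · refine ⟨⟨b, hbQ⟩, Or.inr ⟨Subtype.ext ?_, Subtype.ext ?_⟩⟩
        · show (x * b) ^ 2 = x * b * x * b
          rw [pow_two]; group
        · rw [hP]
          show a * b * a = b
          rw [← hba, mul_assoc, sq_one hR ha, mul_one]
      · refine ⟨⟨v n, hvQ n⟩, ?_⟩
        have h1 := hstep n
        have h3 : u (n + 1) * v n * u (n + 1) = v n := hseq.fixed (by omega)
        rcases Nat.even_or_odd' n with ⟨k, rfl | rfl⟩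
        · rw [hu, altPair_even] at h1
          rw [hu, altPair_odd] at h3
          exact Or.inl ⟨Subtype.ext h1.symm, Subtype.ext h3⟩
        · rw [hu, altPair_odd] at h1
          rw [show 2 * k + 1 + 1 = 2 * (k + 1) by ring, hu, altPair_even] at h3
          exact Or.inr ⟨Subtype.ext h1.symm, Subtype.ext h3⟩
  have hinj : ∀ (p q : ↥Q →* ↥Q), (∀ z, p z = z → q z = z → z = 1) → ∀ y y' : ↥Q, q y = y →
      q y' = y' → p y * y = p y' * y' → y = y' := by
    intro p q ht y y' hy hy' he
    have h1 : p y = p y' * y' * y := by rw [← he, mul_assoc, hinv, mul_one]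
    have h2 : p (y * y') = y * y' := by
      rw [map_mul, h1, show p y' * y' * y * p y' = (p y' * p y') * (y * y') by ac_rfl, hinv, one_mul]
    have h3 : q (y * y') = y * y' := by rw [map_mul, hy, hy']
    have h4 := ht _ h2 h3
    calc y = y * (y' * y') := by rw [hinv, mul_one]
      _ = (y * y') * y' := by rw [mul_assoc]
      _ = y' := by rw [h4, one_mul]
  have hdesc : ∀ i j, i % 2 = j % 2 → v (i + 1) = v (j + 1) → v i = v j := by
    intro i j hij he
    rw [← hstep, ← hstep j] at he
    have hi : u (i + 1) * v i * u (i + 1) = v i := hseq.fixed (by omega)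
    have hj : u (j + 1) * v j * u (j + 1) = v j := hseq.fixed (by omega)
    rw [hseq.congr j i hij.symm] at he
    rw [hseq.congr (j + 1) (i + 1) (by omega)] at hj
    rcases Nat.even_or_odd' i with ⟨k, rfl | rfl⟩
    · rw [hu, altPair_even] at he
      rw [hu, altPair_odd] at hi hj
      exact congrArg Subtype.val (hinj P X htriv ⟨v (2 * k), hvQ _⟩ ⟨v j, hvQ _⟩ (Subtype.ext hi)
        (Subtype.ext hj) (Subtype.ext he))
    · rw [hu, altPair_odd] at he
      rw [show 2 * k + 1 + 1 = 2 * (k + 1) by ring, hu, altPair_even] at hi hj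
      exact congrArg Subtype.val (hinj X P (fun z h h' => htriv z h' h) ⟨v (2 * k + 1), hvQ _⟩ ⟨v j, hvQ _⟩
        (Subtype.ext hi) (Subtype.ext hj) (Subtype.ext he))
  have hdown : ∀ k d, v k = v (k + 2 * d) → v 0 = v (2 * d) := by
    intro k d h
    induction k with
    | zero => rwa [Nat.zero_add] at h
    | succ k ih =>
      refine ih (hdesc k (k + 2 * d) (by omega) ?_)
      rwa [show k + 2 * d + 1 = k + 1 + 2 * d by omega]
  obtain ⟨d, hd, hper⟩ : ∃ d, 0 < d ∧ v 0 = v (2 * d) := by
    obtain ⟨i, j, hne, he⟩ := Finite.exists_ne_map_eq_of_infinite (fun n : ℕ => v (2 * n))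
    rcases Nat.lt_or_gt_of_ne hne with h | h
    · exact ⟨j - i, by omega, hdown (2 * i) _ (by rw [show 2 * i + 2 * (j - i) = 2 * j by omega]; exact he)⟩
    · exact ⟨i - j, by omega, hdown (2 * j) _ (by rw [show 2 * j + 2 * (i - j) = 2 * i by omega]; exact he.symm)⟩
  obtain ⟨d, rfl⟩ : ∃ e, d = e + 1 := ⟨d - 1, by omega⟩
  refine ⟨v (2 * d), hW d, ?_⟩
  have he : v (2 * d + 1) = b := by
    have h1 := hstep (2 * d + 1)
    rw [hu, altPair_odd, show 2 * d + 1 + 1 = 2 * (d + 1) by ring, ← hper] at h1
    have h3 : u (2 * d) * v (2 * d + 1) * u (2 * d) = v (2 * d + 1) := hseq.fixed (by omega)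
    rw [hu, altPair_even] at h3
    refine congrArg Subtype.val (hinj X P (fun z h h' => htriv z h' h) ⟨v (2 * d + 1), hvQ _⟩ ⟨b, hbQ⟩
      (Subtype.ext h3) (Subtype.ext ?_) (Subtype.ext ?_))
    · rw [hP]
      show a * b * a = b
      rw [← hba, mul_assoc, sq_one hR ha, mul_one]
    · show x * v (2 * d + 1) * x * v (2 * d + 1) = x * b * x * b
      rw [h1]
      show (x * b) ^ 2 = x * b * x * b
      rw [pow_two]; group
  rw [← he, hv1, hu, altPair_even]

end Cfsg.Agent.RootSub.Inv
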