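import Cfsg.Prelude.Def_RootSubgroups

/-! Elementary theory of root involutions: pairs, covering by odd partners, connectivity. -/

set_option autoImplicit false

namespace Cfsg.Agent.RootSub.Inv

open Cfsg

variable {G : Type*} [Group G] {D : Set G}

theorem sq_one (hR : IsRootInvolutionSet D) {d : G} (hd : d ∈ D) : d * d = 1 := by
  have h := pow_orderOf_eq_one d
  rwa [hR.orderOf_eq d hd, pow_two] at h

theorem ne_one (hR : IsRootInvolutionSet D) {d : G} (hd : d ∈ D) : d ≠ 1 := fun h => by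
  have := hR.orderOf_eq d hd
  simp [h] at this

theorem inv_eq (hR : IsRootInvolutionSet D) {d : G} (hd : d ∈ D) : d⁻¹ = d :=
  inv_eq_of_mul_eq_one_right (sq_one hR hd)

theorem sandwich_mem (hR : IsRootInvolutionSet D) {a b : G} (ha : a ∈ D) (hb : b ∈ D) :
    a * b * a ∈ D := by
  have h := hR.conj_mem b hb a
  rwa [inv_eq hR ha] at h

theorem orderOf_conj_eq (g a : G) : orderOf (g * a * g⁻¹) = orderOf a :=
  orderOf_injective (MulAut.conj g).toMonoidHom (MulAut.conj g).injective a

theorem orderOf_mul_swap (a b : G) : orderOf (b * a) = orderOf (a * b) := by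
  rw [← orderOf_conj_eq b (a * b)]
  group

theorem orderOf_dvd_two_of_comm (hR : IsRootInvolutionSet D) {a b : G} (ha : a ∈ D) (hb : b ∈ D)
    (h : a * b = b * a) : orderOf (a * b) ∣ 2 := by
  apply orderOf_dvd_of_pow_eq_one
  calc (a * b) ^ 2 = a * (b * a) * b := by rw [pow_two]; group
    _ = (a * a) * (b * b) := by rw [← h]; group
    _ = 1 := by rw [sq_one hR ha, sq_one hR hb, one_mul]

theorem eq_of_mul_eq_one (hR : IsRootInvolutionSet D) {a b : G} (ha : a ∈ D) (h : a * b = 1) :
    a = b := by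
  have h1 := mul_eq_one_iff_inv_eq.1 h
  rwa [inv_eq hR ha] at h1

theorem eq_of_comm_of_odd (hR : IsRootInvolutionSet D) {a b : G} (ha : a ∈ D) (hb : b ∈ D)
    (h : a * b = b * a) (ho : Odd (orderOf (a * b))) : a = b := by
  refine eq_of_mul_eq_one hR ha (orderOf_eq_one_iff.1 ?_)
  rcases (Nat.dvd_prime Nat.prime_two).1 (orderOf_dvd_two_of_comm hR ha hb h) with h1 | h1
  · exact h1
  · exact absurd ho (by rw [h1]; decide)

theorem not_comm_of_four (hR : IsRootInvolutionSet D) {a b : G} (ha : a ∈ D) (hb : b ∈ D)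
    (h4 : orderOf (a * b) = 4) : a * b ≠ b * a := fun h => by
  have := orderOf_dvd_two_of_comm hR ha hb h
  rw [h4] at this
  exact absurd this (by decide)

theorem mem_oddPartners_iff (hR : IsRootInvolutionSet D) {a x : G} (ha : a ∈ D) :
    x ∈ oddPartners D a ↔ x ∈ D ∧ a * x ≠ x * a ∧ orderOf (a * x) ≠ 4 := by
  constructor
  · rintro ⟨hx, hne, ho⟩
    exact ⟨hx, fun h => hne (eq_of_comm_of_odd hR ha hx h ho).symm,
      fun h => by rw [h] at ho; exact absurd ho (by decide)⟩
  · rintro ⟨hx, hc, h4⟩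
    refine ⟨hx, fun h => hc (by rw [h]), ?_⟩
    rcases hR.pair a ha x hx with h | h | ⟨h, -⟩
    exacts [absurd h hc, h, absurd h h4]

theorem four_of (hR : IsRootInvolutionSet D) {a b : G} (ha : a ∈ D) (hb : b ∈ D)
    (hc : a * b ≠ b * a) (ho : b ∉ oddPartners D a) : orderOf (a * b) = 4 := by
  by_contra h4
  exact ho ((mem_oddPartners_iff hR ha).2 ⟨hb, hc, h4⟩)

theorem oddPartners_symm {a x : G} (ha : a ∈ D) (hx : x ∈ oddPartners D a) :
    a ∈ oddPartners D x :=
  ⟨ha, hx.2.1.symm, by rw [orderOf_mul_swap]; exact hx.2.2⟩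

theorem not_comm_of_odd (hR : IsRootInvolutionSet D) {a x : G} (ha : a ∈ D)
    (hx : x ∈ oddPartners D a) : a * x ≠ x * a :=
  ((mem_oddPartners_iff hR ha).1 hx).2.1

theorem conj_mem_oddPartners (hR : IsRootInvolutionSet D) {a x : G} (hx : x ∈ oddPartners D a)
    (g : G) : g * x * g⁻¹ ∈ oddPartners D (g * a * g⁻¹) := by
  refine ⟨hR.conj_mem x hx.1 g, fun h => hx.2.1 (by simpa using h), ?_⟩
  have : g * a * g⁻¹ * (g * x * g⁻¹) = g * (a * x) * g⁻¹ := by group
  rw [this, orderOf_conj_eq]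
  exact hx.2.2

theorem oddPartners_conj (hR : IsRootInvolutionSet D) (g a : G) :
    oddPartners D (g * a * g⁻¹) = (fun x => g * x * g⁻¹) '' oddPartners D a := by
  ext x
  constructor
  · intro hx
    refine ⟨g⁻¹ * x * g, ?_, by group⟩
    have h := conj_mem_oddPartners hR hx g⁻¹
    rwa [inv_inv, show g⁻¹ * (g * a * g⁻¹) * g = a by group] at h
  · rintro ⟨y, hy, rfl⟩
    exact conj_mem_oddPartners hR hy g

theorem productPartners_symm {a e : G} (ha : a ∈ D) (he : e ∈ productPartners D a) :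
    a ∈ productPartners D e := by
  obtain ⟨⟨he1, he2, he3⟩, he4⟩ := he
  exact ⟨⟨ha, he2.symm, he3.symm⟩, by rwa [← he2]⟩

/-- Facts about a pair with product of order four. -/
theorem four_facts (hR : IsRootInvolutionSet D) {a b : G} (ha : a ∈ D) (hb : b ∈ D)
    (h4 : orderOf (a * b) = 4) :
    (a * b) ^ 2 ∈ productPartners D a ∧ (a * b) ^ 2 ∈ productPartners D b ∧
      (a * b) ^ 2 = (b * a) ^ 2 ∧ b * a * b = a * (a * b) ^ 2 ∧ a * b * a = b * (a * b) ^ 2 := by
  have hc : (a * b) ^ 2 ∈ D := by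
    rcases hR.pair a ha b hb with h | h | ⟨-, h⟩
    · exact absurd h (not_comm_of_four hR ha hb h4)
    · rw [h4] at h; exact absurd h (by decide)
    · exact h
  have hsym : (a * b) ^ 2 = (b * a) ^ 2 := by
    conv_lhs => rw [← inv_eq hR hc]
    rw [← inv_pow, mul_inv_rev, inv_eq hR ha, inv_eq hR hb]
  have h1 : b * a * b = a * (a * b) ^ 2 := by
    rw [pow_two, show a * (a * b * (a * b)) = (a * a) * (b * a * b) by group, sq_one hR ha, one_mul]
  have h2 : a * b * a = b * (a * b) ^ 2 := by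
    rw [hsym, pow_two, show b * (b * a * (b * a)) = (b * b) * (a * b * a) by group, sq_one hR hb,
      one_mul]
  have hca : (a * b) ^ 2 * a = a * (a * b) ^ 2 := by
    conv_rhs => rw [hsym]
    rw [pow_two, pow_two]; group
  have hcb : (a * b) ^ 2 * b = b * (a * b) ^ 2 := by
    rw [← h2, pow_two, show a * b * (a * b) * b = a * b * a * (b * b) by group, sq_one hR hb,
      mul_one]
  have hne : ∀ x y : G, x ∈ D → (a * b) ^ 2 * x = x * (a * b) ^ 2 → (a * b) ^ 2 = x →
      ((x = a ∧ y = b) ∨ (x = b ∧ y = a)) → False := by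
    intro x y hx _ heq hxy
    apply not_comm_of_four hR ha hb h4
    rcases hxy with ⟨rfl, rfl⟩ | ⟨rfl, rfl⟩
    · rw [heq] at hcb; exact hcb
    · rw [heq] at hca; exact hca.symm
  refine ⟨⟨⟨hc, hca, fun h => hne a b ha hca h (Or.inl ⟨rfl, rfl⟩)⟩, ?_⟩,
    ⟨⟨hc, hcb, fun h => hne b a hb hcb h (Or.inr ⟨rfl, rfl⟩)⟩, ?_⟩, hsym, h1, h2⟩
  · rw [hca, ← h1]; exact sandwich_mem hR hb ha
  · rw [hcb, ← h2]; exact sandwich_mem hR ha hb

/-- If `e` is a product partner of `a` and `x` commutes with `a`, then `e x` has even order. -/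
theorem not_odd_of_partner (hR : IsRootInvolutionSet D) {a e x : G} (ha : a ∈ D)
    (he : e ∈ productPartners D a) (hxa : x * a = a * x) (hxe : x ∈ oddPartners D e) : False := by
  obtain ⟨⟨he1, he2, -⟩, he4⟩ := he
  obtain ⟨hx, hne, ho⟩ := hxe
  rw [← orderOf_mul_swap] at ho
  have hcom : Commute (x * e) a := (show Commute x a from hxa).mul_left (show Commute e a from he2)
  have hord : orderOf (x * (e * a)) = 2 * orderOf (x * e) := by
    rw [← mul_assoc, hcom.orderOf_mul_eq_mul_orderOf_of_coprime, hR.orderOf_eq a ha, mul_comm]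
    rw [hR.orderOf_eq a ha]
    exact (Nat.coprime_two_right).2 ho
  have hn1 : orderOf (x * e) ≠ 1 := fun h =>
    hne (eq_of_mul_eq_one hR hx (orderOf_eq_one_iff.1 h))
  rcases hR.pair x hx _ he4 with h | h | ⟨h, -⟩
  · have := orderOf_dvd_two_of_comm hR hx he4 h
    rw [hord] at this
    have := Nat.le_of_dvd two_pos this
    have hpos : orderOf (x * e) ≠ 0 := fun h0 => by simp [h0] at ho
    omega
  · rw [hord, Nat.odd_mul] at h; exact absurd h.1 (by decide)
  · rw [hord] at h
    have : orderOf (x * e) = 2 := by omega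
    rw [this] at ho
    exact absurd ho (by decide)

/-- No odd partner of `a` commutes with a product partner of `a`. -/
theorem not_comm_partner (hR : IsRootInvolutionSet D) {a e x : G} (ha : a ∈ D)
    (he : e ∈ productPartners D a) (hx : x ∈ oddPartners D a) : x * e ≠ e * x :=
  fun h => not_odd_of_partner hR he.1.1 (productPartners_symm ha he) h hx

/-- An odd partner of `a` is an odd partner of `e` or of `e a`, for a product partner `e`. -/
theorem cover (hR : IsRootInvolutionSet D) {a e x : G} (ha : a ∈ D)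
    (he : e ∈ productPartners D a) (hx : x ∈ oddPartners D a) :
    x ∈ oddPartners D e ∨ x ∈ oddPartners D (e * a) := by
  by_contra hcon
  rw [not_or] at hcon
  obtain ⟨h1, h2⟩ := hcon
  have heD : e ∈ D := he.1.1
  have hea : e * a = a * e := he.1.2.1
  have hf : e * a ∈ D := he.2
  have hxD : x ∈ D := hx.1
  have hfp : e * a ∈ productPartners D a := by
    refine ⟨⟨hf, ?_, fun h => ne_one hR heD (by simpa using h)⟩, ?_⟩
    · rw [← mul_assoc, ← hea]
    · rw [mul_assoc, sq_one hR ha, mul_one]; exact heD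
  have h4e := four_of hR heD hxD (fun h => not_comm_partner hR ha he hx h.symm) h1
  have h4f := four_of hR hf hxD (fun h => not_comm_partner hR ha hfp hx h.symm) h2
  obtain ⟨-, hp, -, -, hs⟩ := four_facts hR heD hxD h4e
  obtain ⟨-, hq, -, -, ht⟩ := four_facts hR hf hxD h4f
  have hv : e * x * e ∈ D := sandwich_mem hR heD hxD
  have hxv : x ∈ productPartners D (e * x * e) := by
    refine productPartners_symm hxD ⟨⟨hv, ?_, fun h => ?_⟩, ?_⟩
    · rw [hs, mul_assoc, hp.1.2.1, ← mul_assoc]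
    · apply not_comm_partner hR ha he hx
      calc x * e = e * x * e * e := by rw [h]
        _ = e * x := by rw [mul_assoc, sq_one hR heD, mul_one]
    · rw [hs, mul_assoc, hp.1.2.1, ← mul_assoc, sq_one hR hxD, one_mul]; exact hp.1.1
  have hw : (e * a) * x * (e * a) * x = x * ((e * a) * x * (e * a)) := by
    rw [ht, mul_assoc, hq.1.2.1]
  have haa := sq_one hR ha
  have hea' : a * (e * a) = e := by rw [hea, ← mul_assoc, haa, one_mul]
  have hea'' : e * a * a = e := by rw [mul_assoc, haa, mul_one]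
  refine not_odd_of_partner hR (x := a * x * a) hv hxv ?_ ?_
  · have h3 := congrArg (fun z => a * z * a) hw
    calc a * x * a * (e * x * e) = a * x * (a * (e * x * (e * a)) * a) := by
          rw [show a * (e * x * (e * a)) * a = (a * e) * x * (e * a * a) by group, hea'', ← hea]
          rw [show a * x * a * (e * x * e) = a * x * ((a * e) * x * e) by group, ← hea]
      _ = e * x * e * (a * x * a) := by
        have h4 : a * (x * ((e * a) * x * (e * a))) * a =
            a * ((e * a) * x * (e * a) * x) * a := by rw [hw]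
        have h5 : a * x * (a * (e * x * (e * a)) * a) =
            a * (x * ((e * a) * x * (e * a))) * a := by rw [hea]; group
        rw [h5, h4, show a * ((e * a) * x * (e * a) * x) * a =
          (a * (e * a)) * x * ((e * a) * x * a) by group, hea']
        group
  · refine ⟨sandwich_mem hR ha hxD, fun h => ?_, ?_⟩
    · apply not_comm_of_odd hR ha hx
      calc a * x = a * x * a * a := by rw [mul_assoc, haa, mul_one]
        _ = x * a := by rw [h]
    · have hodd : Odd (orderOf (x * a)) := by rw [orderOf_mul_swap]; exact hx.2.2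
      have : x * (a * x * a) = (x * a) ^ 2 := by rw [pow_two]; group
      rw [this, Nat.Coprime.orderOf_pow ((Nat.coprime_two_right).2 hodd)]
      exact hodd

/-- Members with product of odd order are conjugate. -/
theorem exists_conj_of_odd (hR : IsRootInvolutionSet D) {a b : G} (ha : a ∈ D)
    (hb : b ∈ oddPartners D a) : ∃ g : G, b = g * a * g⁻¹ := by
  obtain ⟨j, hj⟩ := hb.2.2
  refine ⟨(a * b) ^ j, ?_⟩
  have hs : SemiconjBy a (b * a) (a * b) := by unfold SemiconjBy; group
  have h1 : a * ((a * b) ^ j)⁻¹ = (a * b) ^ j * a := by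
    rw [← inv_pow, mul_inv_rev, inv_eq hR ha, inv_eq hR hb.1]
    exact (hs.pow_right j).eq
  have h2 : (a * b) ^ (2 * j + 1) = 1 := by rw [← hj]; exact pow_orderOf_eq_one _
  rw [mul_assoc, h1, ← mul_assoc, ← pow_add, ← two_mul]
  rw [pow_succ] at h2
  rw [eq_inv_of_mul_eq_one_left h2, mul_inv_rev, inv_eq hR ha, inv_eq hR hb.1, mul_assoc,
    sq_one hR ha, mul_one]

theorem exists_conj (hR : IsRootInvolutionSet D) (hc : IsConnectedSet (OddAdj D) D) {a b : G}
    (ha : a ∈ D) (hb : b ∈ D) : ∃ g : G, b = g * a * g⁻¹ := by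
  have h := hc a ha b hb
  clear hb
  induction h with
  | refl => exact ⟨1, by simp⟩
  | @tail c d _ hcd ih =>
    obtain ⟨g, rfl⟩ := ih
    obtain ⟨k, hk⟩ := exists_conj_of_odd hR hcd.1 ⟨hcd.2.1, hcd.2.2.1.symm, hcd.2.2.2⟩
    exact ⟨k * g, by rw [hk]; group⟩

theorem ncard_oddPartners (hR : IsRootInvolutionSet D) (hc : IsConnectedSet (OddAdj D) D) {a b : G}
    (ha : a ∈ D) (hb : b ∈ D) : (oddPartners D b).ncard = (oddPartners D a).ncard := by
  obtain ⟨g, rfl⟩ := exists_conj hR hc ha hb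
  rw [oddPartners_conj hR]
  exact Set.ncard_image_of_injective _ fun x y h => by simpa using h

theorem eq_of_subset [Finite G] (hR : IsRootInvolutionSet D) (hc : IsConnectedSet (OddAdj D) D)
    {a b : G} (ha : a ∈ D) (hb : b ∈ D) (h : oddPartners D a ⊆ oddPartners D b) :
    oddPartners D a = oddPartners D b :=
  Set.eq_of_subset_of_ncard_le h (ncard_oddPartners hR hc ha hb).le (Set.toFinite _)

theorem exists_not_mem [Finite G] (hR : IsRootInvolutionSet D) (hc : IsConnectedSet (OddAdj D) D)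
    {a b : G} (ha : a ∈ D) (hb : b ∈ D) (h : oddPartners D a ≠ oddPartners D b) :
    ∃ x, x ∈ oddPartners D a ∧ x ∉ oddPartners D b :=
  Set.not_subset.1 fun hs => h (eq_of_subset hR hc ha hb hs)

theorem closure_pair_isPGroup {a b : G} (ha : a * a = 1) (hb : b * b = 1) (h : (a * b) ^ 4 = 1) :
    IsPGroup 2 (Subgroup.closure ({a, b} : Set G)) := by
  have hai : a⁻¹ = a := inv_eq_of_mul_eq_one_right ha
  have hbi : b⁻¹ = b := inv_eq_of_mul_eq_one_right hb
  have hinv : a * (a * b) * a⁻¹ = (a * b)⁻¹ := by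
    rw [← mul_assoc, ha, one_mul, hai, mul_inv_rev, hai, hbi]
  have hz : ∀ i : ℤ, a * (a * b) ^ i * a = (a * b) ^ (-i) := by
    intro i
    calc a * (a * b) ^ i * a = a * (a * b) ^ i * a⁻¹ := by rw [hai]
      _ = (a * b) ^ (-i) := by rw [← conj_zpow, hinv, inv_zpow']
  let K : Subgroup G :=
    { carrier := {g | (∃ i : ℤ, g = (a * b) ^ i) ∨ (∃ i : ℤ, g = a * (a * b) ^ i)}
      one_mem' := Or.inl ⟨0, by simp⟩
      inv_mem' := by
        rintro g (⟨i, rfl⟩ | ⟨i, rfl⟩)
        · exact Or.inl ⟨-i, by rw [zpow_neg]⟩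
        · refine Or.inr ⟨i, ?_⟩
          rw [mul_inv_rev, ← zpow_neg, hai, ← hz, mul_assoc (a * (a * b) ^ i), ha, mul_one]
      mul_mem' := by
        rintro g g' (⟨i, rfl⟩ | ⟨i, rfl⟩) (⟨j, rfl⟩ | ⟨j, rfl⟩)
        · exact Or.inl ⟨i + j, by rw [zpow_add]⟩
        · refine Or.inr ⟨-i + j, ?_⟩
          rw [zpow_add, ← hz]
          rw [show a * (a * (a * b) ^ i * a * (a * b) ^ j) =
            (a * a) * ((a * b) ^ i * (a * (a * b) ^ j)) by group, ha, one_mul]
        · exact Or.inr ⟨i + j, by rw [zpow_add]; group⟩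
        · refine Or.inl ⟨-i + j, ?_⟩
          rw [zpow_add, ← hz]; group }
  have hle : Subgroup.closure ({a, b} : Set G) ≤ K := by
    rw [Subgroup.closure_le]
    rintro x (rfl | rfl)
    · exact Or.inr ⟨0, by simp⟩
    · exact Or.inr ⟨1, by rw [zpow_one, ← mul_assoc, ha, one_mul]⟩
  intro g
  refine ⟨2, Subtype.ext ?_⟩
  have h4 : ∀ i : ℤ, ((a * b) ^ i) ^ 4 = 1 := by
    intro i
    rw [← zpow_natCast, ← zpow_mul, mul_comm, zpow_mul, zpow_natCast, h, one_zpow]
  rcases hle g.2 with ⟨i, hi⟩ | ⟨i, hi⟩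
  · simpa [hi] using h4 i
  · have h2 : (a * (a * b) ^ i) * (a * (a * b) ^ i) = 1 := by
      rw [show (a * (a * b) ^ i) * (a * (a * b) ^ i) = (a * (a * b) ^ i * a) * (a * b) ^ i by group,
        hz, ← zpow_add]
      simp
    simp [hi, pow_succ, ← mul_assoc, h2]

theorem pair_isPGroup (hR : IsRootInvolutionSet D) {a b : G} (ha : a ∈ D) (hb : b ∈ D)
    (ho : b ∉ oddPartners D a) : IsPGroup 2 (Subgroup.closure ({a, b} : Set G)) := by
  apply closure_pair_isPGroup (sq_one hR ha) (sq_one hR hb)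
  by_cases hc : a * b = b * a
  · exact orderOf_dvd_iff_pow_eq_one.1 ((orderOf_dvd_two_of_comm hR ha hb hc).trans (by norm_num))
  · exact four_of hR ha hb hc ho ▸ pow_orderOf_eq_one _

end Cfsg.Agent.RootSub.Inv
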