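import Cfsg.Agent.RootSub.RankOne
import Cfsg.Prelude.Def_Transfer

/-! Rank one groups with a quadratic module. -/

set_option autoImplicit false

namespace Cfsg.Agent.RootSub

open Cfsg

variable {X : Type*} [Group X] {A B : Subgroup X} {N : Type*} [AddCommGroup N] [DistribMulAction X N]

/-- The elements acting quadratically commute with the differences. -/
theorem quad_smul_sub (hq : ∀ a ∈ A, ∀ a' ∈ A, ∀ n : N, a' • (a • n - n) = a • n - n) (g : X) :
    ∀ a ∈ conjBy A g, ∀ a' ∈ conjBy A g, ∀ n : N, a' • (a • n - n) = a • n - n := by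
  intro a ha a' ha' n
  obtain ⟨x, hx, rfl⟩ : ∃ x ∈ A, g * x * g⁻¹ = a := ⟨_, mem_conjBy.1 ha, by group⟩
  obtain ⟨y, hy, rfl⟩ : ∃ y ∈ A, g * y * g⁻¹ = a' := ⟨_, mem_conjBy.1 ha', by group⟩
  have := congrArg (g • ·) (hq x hx y hy (g⁻¹ • n))
  simp only [smul_sub, smul_inv_smul] at this
  simp only [smul_sub, mul_smul, inv_smul_smul]
  exact this

/-- The fixed points of the whole group. -/
def fixedPts (X N : Type*) [Group X] [AddCommGroup N] [DistribMulAction X N] : AddSubgroup N where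
  carrier := {n | ∀ x : X, x • n = n}
  add_mem' := fun ha hb x => by rw [smul_add, ha x, hb x]
  zero_mem' := fun x => smul_zero x
  neg_mem' := fun ha x => by rw [smul_neg, ha x]

theorem mem_fixedPts {n : N} : n ∈ fixedPts X N ↔ ∀ x : X, x • n = n := Iff.rfl

theorem fixed_of_fixed_gen (htop : A ⊔ B = ⊤) {n : N} (hA : ∀ a ∈ A, a • n = n)
    (hB : ∀ b ∈ B, b • n = n) : n ∈ fixedPts X N := by
  intro x
  have hle : A ⊔ B ≤ MulAction.stabilizer X n :=
    sup_le (fun a ha => hA a ha) (fun b hb => hB b hb)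
  exact hle (htop ▸ Subgroup.mem_top x)

theorem quad_B (h : IsRankOneGroup X A B)
    (hq : ∀ a ∈ A, ∀ a' ∈ A, ∀ n : N, a' • (a • n - n) = a • n - n) :
    ∀ b ∈ B, ∀ b' ∈ B, ∀ n : N, b' • (b • n - n) = b • n - n := by
  obtain ⟨g, -, hg⟩ := Pair.right_mem_unipotents h.2
  intro b hb b' hb' n
  exact quad_smul_sub hq g b (hg ▸ hb) b' (hg ▸ hb') n

/-- The subgroup of elements whose differences are fixed points. -/
def diffFixed (X N : Type*) [Group X] [AddCommGroup N] [DistribMulAction X N] : Subgroup X where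
  carrier := {x | ∀ n : N, x • n - n ∈ fixedPts X N}
  one_mem' := fun n => by simp
  mul_mem' := fun {x y} hx hy n => by
    have := add_mem (hx (y • n)) (hy n)
    rwa [sub_add_sub_cancel, ← mul_smul] at this
  inv_mem' := fun {x} hx n => by
    have := neg_mem (hx (x⁻¹ • n))
    rwa [smul_inv_smul, neg_sub] at this

/-- Elements of `A`, `B` attached to each other: `b⁻¹ A b = a⁻¹ B a`. The displacement spaces
interchange modulo fixed points. -/
theorem interchange (htop : A ⊔ B = ⊤)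
    (hq : ∀ a ∈ A, ∀ a' ∈ A, ∀ n : N, a' • (a • n - n) = a • n - n)
    (hqB : ∀ b ∈ B, ∀ b' ∈ B, ∀ n : N, b' • (b • n - n) = b • n - n)
    {a b : X} (ha : a ∈ A) (hb : b ∈ B) (he : conjBy A b⁻¹ = conjBy B a⁻¹)
    {u : N} (hu : ∃ a₁ ∈ A, ∃ n : N, a₁ • n - n = u) :
    a • (b • u - u) - (b • u - u) - u ∈ fixedPts X N := by
  obtain ⟨a₁, ha₁, n, rfl⟩ := hu
  set u := a₁ • n - n with hu'
  have huA : ∀ x ∈ A, x • u = u := fun x hx => hq a₁ ha₁ x hx n
  set w₁ := b • u - u with hw₁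
  have hw₁B : ∀ y ∈ B, y • w₁ = w₁ := fun y hy => hqB b hb y hy u
  have hwb : b⁻¹ • u = u - w₁ := by
    have h1 := hw₁B b⁻¹ (inv_mem hb)
    rw [hw₁, smul_sub, inv_smul_smul] at h1
    rw [hw₁, ← h1]; abel
  -- `b⁻¹ u` is a displacement of `a⁻¹ B a`
  obtain ⟨y, hy, hye⟩ : ∃ y ∈ B, b⁻¹ * a₁ * b = a⁻¹ * y * a := by
    have h1 := conj_mem_conjBy b⁻¹ ha₁
    rw [inv_inv, he, mem_conjBy, inv_inv] at h1
    exact ⟨_, h1, by group⟩
  set w := y • (a • (b⁻¹ • n)) - a • (b⁻¹ • n) with hw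
  have hwB : ∀ y' ∈ B, y' • w = w := fun y' hy' => hqB y hy y' hy' _
  have key : b⁻¹ • u = a⁻¹ • w := by
    have e1 : (b⁻¹ * a₁ * b) • (b⁻¹ • n) = b⁻¹ • (a₁ • n) := by
      rw [mul_smul, mul_smul, smul_inv_smul]
    rw [hye, mul_smul, mul_smul] at e1
    rw [hu', smul_sub, ← e1, hw, smul_sub, inv_smul_smul]
  -- `z` is fixed by everything
  set t := a⁻¹ • w - w with ht
  have htA : ∀ x ∈ A, x • t = t := fun x hx => hq a⁻¹ (inv_mem ha) x hx w
  have hz : u - t ∈ fixedPts X N := by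
    refine fixed_of_fixed_gen htop (fun x hx => ?_) (fun x hx => ?_)
    · rw [smul_sub, huA x hx, htA x hx]
    · have : u - t = w + w₁ := by
        rw [ht, ← key, hwb]; abel
      rw [this, smul_add, hwB x hx, hw₁B x hx]
  -- apply `a`
  have haw₁ : a • w₁ - w₁ = -(a • w - w) := by
    have hfix : (w + w₁) ∈ fixedPts X N := by
      have : w + w₁ = u - t := by rw [ht, ← key, hwb]; abel
      rw [this]; exact hz
    have := hfix a
    rw [smul_add] at this
    rw [neg_sub, sub_eq_sub_iff_add_eq_add, add_comm (a • w₁), this, add_comm]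
  have haw : a • w - w = -t := by
    have h1 := htA a ha
    rw [ht, smul_sub, smul_inv_smul] at h1
    rw [ht, ← h1]; abel
  rw [haw₁, haw, neg_neg]
  have := neg_mem hz
  rwa [neg_sub] at this

/-- Some displacement is not fixed. -/
theorem not_all_fixed (h : IsRankOneGroup X A B)
    (hX : ∃ x y : X, ∃ n : N, y • (x • n - n) ≠ x • n - n) :
    ¬ ∀ a ∈ A, ∀ n : N, a • n - n ∈ fixedPts X N := by
  intro hall
  obtain ⟨x, y, n, hne⟩ := hX
  obtain ⟨g, -, hg⟩ := Pair.right_mem_unipotents h.2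
  have hB : ∀ b ∈ B, ∀ n : N, b • n - n ∈ fixedPts X N := by
    intro b hb n
    rw [hg, mem_conjBy] at hb
    have := hall _ hb (g⁻¹ • n)
    have e : (g⁻¹ * b * g) • (g⁻¹ • n) - g⁻¹ • n = g⁻¹ • (b • n - n) := by
      rw [mul_smul, mul_smul, smul_inv_smul, smul_sub]
    rw [e] at this
    have h2 : b • n - n = g⁻¹ • (b • n - n) := by
      have := this g
      rwa [smul_inv_smul] at this
    rwa [h2]
  have hle : A ⊔ B ≤ diffFixed X N := sup_le hall hB
  exact hne (hle (h.1 ▸ Subgroup.mem_top x) n y)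

/-- An element of `B` acting trivially on the displacements modulo fixed points is trivial. -/
theorem eq_one_of_trivial_mod (h : IsRankOneGroup X A B)
    (hq : ∀ a ∈ A, ∀ a' ∈ A, ∀ n : N, a' • (a • n - n) = a • n - n)
    (hX : ∃ x y : X, ∃ n : N, y • (x • n - n) ≠ x • n - n) {b₀ : X} (hb₀ : b₀ ∈ B)
    (hu₀ : ∀ u : N, (∃ a₁ ∈ A, ∃ n : N, a₁ • n - n = u) → b₀ • u - u ∈ fixedPts X N) :
    b₀ = 1 := by
  by_contra hb1
  obtain ⟨a₀, ha₀, -, he⟩ := h.2.cond_right b₀ hb₀ hb1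
  refine not_all_fixed h hX fun a₁ ha₁ n => ?_
  have h1 := interchange h.1 hq (quad_B h hq) ha₀ hb₀ he.symm ⟨a₁, ha₁, n, rfl⟩
  have h2 := hu₀ _ ⟨a₁, ha₁, n, rfl⟩
  rw [h2 a₀, sub_self, zero_sub] at h1
  simpa using neg_mem h1

theorem special_of_quadratic (h : IsRankOneGroup X A B)
    (hq : ∀ a ∈ A, ∀ a' ∈ A, ∀ n : N, a' • (a • n - n) = a • n - n)
    (hX : ∃ x y : X, ∃ n : N, y • (x • n - n) ≠ x • n - n) : IsSpecialRankOnePair A B := by
  refine ⟨h.2, fun a ha _ b hb _ he => ?_⟩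
  set b' := a * (b⁻¹ * a * b) * a⁻¹ with hb'
  have hb'B : b' ∈ B := by
    have h1 := conj_mem_conjBy b⁻¹ ha
    rw [inv_inv, he, mem_conjBy, inv_inv] at h1
    exact h1
  suffices hbb : b * b' = 1 by
    calc b⁻¹ * a * b = a⁻¹ * (b⁻¹ * (b * b')) * a := by rw [hb']; group
      _ = a⁻¹ * b⁻¹ * a := by rw [hbb, mul_one]
  refine eq_one_of_trivial_mod h hq hX (mul_mem hb hb'B) fun u hu => ?_
  obtain ⟨a₁, ha₁, n, rfl⟩ := hu
  set u := a₁ • n - n with hu'
  have huA : ∀ x ∈ A, x • u = u := fun x hx => hq a₁ ha₁ x hx n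
  set w₁ := b • u - u with hw₁
  have hw₁B : ∀ y ∈ B, y • w₁ = w₁ := fun y hy => quad_B h hq b hb y hy u
  obtain hf := interchange h.1 hq (quad_B h hq) ha hb he ⟨a₁, ha₁, n, rfl⟩
  set f := a • w₁ - w₁ - u
  have haw : a • w₁ = w₁ + u + f := by simp only [f]; abel
  have hbu : b • u = u + w₁ := by rw [hw₁]; abel
  have hbi : b⁻¹ • u = u - w₁ := by
    rw [inv_smul_eq_iff, smul_sub, hbu, hw₁B b hb]; abel
  have hb'u : b' • u = u - w₁ := by
    rw [hb']
    simp only [mul_smul]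
    rw [huA a⁻¹ (inv_mem ha), hbu, smul_add, huA a ha, haw]
    rw [show u + (w₁ + u + f) = u + u + w₁ + f by abel]
    simp only [smul_add, smul_sub, hbi, hw₁B b⁻¹ (inv_mem hb), hf b⁻¹, huA a ha, haw, hf a]
    abel
  rw [mul_smul, hb'u, smul_sub, hbu, hw₁B b hb, add_sub_cancel_right, sub_self]
  exact zero_mem _

theorem unipotent_structure (h : IsRankOneGroup X A B)
    {V : Type*} [AddCommGroup V] [DistribMulAction X V] (hf : ∀ x : X, (∀ v : V, x • v = v) → x = 1)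
    (hq : ∀ a ∈ A, ∀ a' ∈ A, ∀ v : V, a' • (a • v - v) = a • v - v) :
    (∀ a ∈ A, a ≠ 1 → ¬ IsOfFinOrder a) ∨ ∃ p : ℕ, p.Prime ∧ Cfsg.IsElementaryAbelian p A := by
  have hadd : ∀ a ∈ A, ∀ a' ∈ A, ∀ v : V, (a * a') • v - v = (a • v - v) + (a' • v - v) := by
    intro a ha a' ha' v
    have h0 := hq a' ha' a ha v
    have hv : a' • v = (a' • v - v) + v := by abel
    rw [mul_smul]
    conv_lhs => rw [hv, smul_add, h0]
    abel
  have hcomm : ∀ a ∈ A, ∀ a' ∈ A, a * a' = a' * a := by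
    intro a ha a' ha'
    have := hf ((a' * a)⁻¹ * (a * a')) fun v => by
      rw [mul_smul, inv_smul_eq_iff, ← sub_left_inj (a := v), hadd a ha a' ha', hadd a' ha' a ha,
        add_comm]
    rw [inv_mul_eq_one] at this
    exact this.symm
  by_cases hfin : ∀ a ∈ A, a ≠ 1 → ¬ IsOfFinOrder a
  · exact Or.inl hfin
  right
  push Not at hfin
  obtain ⟨a, ha, ha1, hfo⟩ := hfin
  set p := (orderOf a).minFac with hp
  have hno : orderOf a ≠ 1 := by simpa [orderOf_eq_one_iff] using ha1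
  have hpp : p.Prime := Nat.minFac_prime hno
  obtain ⟨m, hm⟩ := Nat.minFac_dvd (orderOf a)
  have hpos := hfo.orderOf_pos
  -- an element of order `p`
  have hc : ∃ c ∈ A, c ≠ 1 ∧ c ^ p = 1 := by
    refine ⟨a ^ m, pow_mem ha m, ?_, ?_⟩
    · intro h1
      have h2 := orderOf_dvd_of_pow_eq_one h1
      rw [hm] at h2 hpos
      have hm0 : 0 < m := Nat.pos_of_mul_pos_left hpos
      have h3 := Nat.le_of_dvd hm0 h2
      have h4 : 2 ≤ (orderOf a).minFac := hpp.two_le
      nlinarith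
    · rw [← pow_mul, mul_comm, ← hm, pow_orderOf_eq_one]
  obtain ⟨c, hcA, hc1, hcp⟩ := hc
  have hpow : ∀ x ∈ A, ∀ (n : ℕ) (v : V), x ^ n • v - v = n • (x • v - v) := by
    intro x hx n v
    induction n with
    | zero => simp
    | succ n ih => rw [pow_succ, hadd _ (pow_mem hx n) x hx, ih, succ_nsmul]
  have hX : ∃ x y : X, ∃ v : V, y • (x • v - v) ≠ x • v - v := by
    by_contra hh
    push Not at hh
    obtain ⟨b, hb, hb1⟩ := Pair.exists_ne_one (Pair.ne_bot_right h.2)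
    refine Pair.not_commute h.2 hcA hc1 hb hb1 ?_
    have key : ∀ x y : X, ∀ v : V, (x * y) • v - v = (x • v - v) + (y • v - v) := by
      intro x y v
      have h0 := hh y x v
      have hv : y • v = (y • v - v) + v := by abel
      rw [mul_smul]
      conv_lhs => rw [hv, smul_add, h0]
      abel
    have := hf ((b * c)⁻¹ * (c * b)) fun v => by
      rw [mul_smul, inv_smul_eq_iff, ← sub_left_inj (a := v), key, key, add_comm]
    rw [inv_mul_eq_one] at this
    exact this.symm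
  obtain ⟨b, hb, -, he⟩ := h.2.cond_left c hcA hc1
  -- every displacement is killed by `p` modulo fixed points
  have hp1 : ∀ u : V, (∃ a₁ ∈ A, ∃ v : V, a₁ • v - v = u) → p • u ∈ fixedPts X V := by
    intro u hu
    have h1 := interchange h.1 hq (quad_B h hq) hcA hb he hu
    have h2 : p • (c • (b • u - u) - (b • u - u)) = 0 := by
      rw [← hpow c hcA p, hcp, one_smul, sub_self]
    have h3 := nsmul_mem h1 p
    rw [smul_sub, h2, zero_sub] at h3
    simpa using neg_mem h3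
  refine ⟨p, hpp, ⟨⟨fun x y => Subtype.ext (hcomm x x.2 y y.2)⟩⟩, fun x hx => ?_⟩
  by_contra hx1
  -- `x ^ p` displaces into fixed points
  have hK : ∀ v : V, x ^ p • v - v ∈ fixedPts X V := fun v => by
    rw [hpow x hx]; exact hp1 _ ⟨x, hx, v, rfl⟩
  obtain ⟨b', hb', -, he'⟩ := h.2.cond_left (x ^ p) (pow_mem hx p) hx1
  refine not_all_fixed h hX fun a₁ ha₁ n => ?_
  have h1 := interchange h.1 hq (quad_B h hq) (pow_mem hx p) hb' he' ⟨a₁, ha₁, n, rfl⟩
  have h2 := sub_mem (hK (b' • (a₁ • n - n) - (a₁ • n - n))) h1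
  rwa [sub_sub_cancel] at h2

end Cfsg.Agent.RootSub
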