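import Cfsg.Agent.RootSub.RankOne
import Cfsg.Prelude.Def_Transfer

/-!
# Special rank one pairs with abelian unipotent subgroups

The calculus of the braid partner: `σ(a)` is the element `b` with `conjBy A b⁻¹ = conjBy B a`.
-/

set_option autoImplicit false

namespace Cfsg.Agent.RootSub.Spc

open Cfsg
open scoped commutatorElement

variable {G : Type*} [Group G] {A B : Subgroup G}

/-- A special rank one pair with abelian unipotent subgroups. -/
structure SpPair (A B : Subgroup G) : Prop where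
  special : IsSpecialRankOnePair A B
  abel : HasAbelianUnipotents A B

/-- The braid partner relation. -/
def Sig (A B : Subgroup G) (a b : G) : Prop :=
  a ∈ A ∧ a ≠ 1 ∧ b ∈ B ∧ b ≠ 1 ∧ conjBy A b⁻¹ = conjBy B a

theorem SpPair.rankOne (h : SpPair A B) : IsRankOnePair A B := h.special.1

theorem SpPair.symm (h : SpPair A B) : SpPair B A := by
  refine ⟨⟨RankOnePair_symm h.special.1, fun b hb hb1 a ha ha1 he => ?_⟩, h.abel.2, h.abel.1⟩
  have h1 := congrArg (fun x : G => x⁻¹) (h.special.2 a ha ha1 b hb hb1 he.symm)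
  simp only [mul_inv_rev, inv_inv, ← mul_assoc] at h1
  exact h1.symm

theorem SpPair.commA (h : SpPair A B) {x y : G} (hx : x ∈ A) (hy : y ∈ A) : Commute x y := by
  haveI := h.abel.1
  exact congrArg Subtype.val (mul_comm' (⟨x, hx⟩ : A) ⟨y, hy⟩)

variable {a b s t x : G}

theorem exists_sig (h : SpPair A B) (ha : a ∈ A) (ha1 : a ≠ 1) : ∃ b, Sig A B a b := by
  obtain ⟨b, hb, hb1, he⟩ := h.rankOne.cond_left a⁻¹ (inv_mem ha) (by simpa using ha1)
  rw [inv_inv] at he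
  exact ⟨b, ha, ha1, hb, hb1, he⟩

theorem Sig.right_unique (h : SpPair A B) (hs : Sig A B a s) (ht : Sig A B a t) : s = t :=
  Pair.partner_unique h.rankOne hs.2.2.1 ht.2.2.1 (hs.2.2.2.2.trans ht.2.2.2.2.symm)

theorem Sig.left_unique (h : SpPair A B) (hs : Sig A B a s) (ht : Sig A B x s) : a = x := by
  have he : conjBy B a = conjBy B x := hs.2.2.2.2.symm.trans ht.2.2.2.2
  have h1 : conjBy B (x⁻¹ * a) = B := by
    rw [← conjBy_conjBy, he, conjBy_conjBy, inv_mul_cancel, conjBy_one]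
  exact (inv_mul_eq_one.1 (Pair.eq_one_of_normalizes h.rankOne (mul_mem (inv_mem ht.1) hs.1) h1)).symm

theorem Sig.braid (h : SpPair A B) (hs : Sig A B a b) : a * b * a = b * a * b := by
  obtain ⟨ha, ha1, hb, hb1, he⟩ := hs
  have h1 := h.special.2 a⁻¹ (inv_mem ha) (by simpa using ha1) b hb hb1 (by rwa [inv_inv])
  rw [inv_inv] at h1
  have h2 := congrArg (fun x : G => x⁻¹) h1
  simp only [mul_inv_rev, inv_inv, ← mul_assoc] at h2
  calc a * b * a = b * (b⁻¹ * a * b) * a := by group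
    _ = b * (a * b * a⁻¹) * a := by rw [h2]
    _ = b * a * b := by group

/-- The element interchanging `A` and `B`. -/
def nEl (a b : G) : G := a * b * a

theorem Sig.n_mem (hs : Sig A B a b) : nEl a b ∈ A ⊔ B :=
  mul_mem (mul_mem (Subgroup.mem_sup_left hs.1) (Subgroup.mem_sup_right hs.2.2.1))
    (Subgroup.mem_sup_left hs.1)

theorem Sig.n_left (h : SpPair A B) (hs : Sig A B a b) : nEl a b * a * (nEl a b)⁻¹ = b := by
  rw [mul_inv_eq_iff_eq_mul]
  unfold nEl
  conv_lhs => rw [hs.braid h]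
  group

theorem Sig.n_right (h : SpPair A B) (hs : Sig A B a b) : nEl a b * b * (nEl a b)⁻¹ = a := by
  rw [mul_inv_eq_iff_eq_mul]
  unfold nEl
  conv_rhs => rw [hs.braid h]
  group

theorem Sig.n_conj_B (hs : Sig A B a b) : conjBy B (nEl a b) = A := by
  rw [nEl, ← conjBy_conjBy, ← hs.2.2.2.2, conjBy_conjBy,
    show a * b * b⁻¹ = a by group, conjBy_mem_self hs.1]

theorem Sig.n_conj_A (h : SpPair A B) (hs : Sig A B a b) : conjBy A (nEl a b) = B := by
  by_contra hne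
  have h1 := Pair.inf_eq_bot_of_ne h.rankOne
    (Pair.unip_invariant Pair.left_mem_unipotents hs.n_mem) (Pair.right_mem_unipotents h.rankOne) hne
  have h2 : b ∈ conjBy A (nEl a b) ⊓ B := ⟨by
    have := conj_mem_conjBy (nEl a b) hs.1
    rwa [hs.n_left h] at this, hs.2.2.1⟩
  rw [h1, Subgroup.mem_bot] at h2
  exact hs.2.2.2.1 h2

theorem Sig.n_mem_B (h : SpPair A B) (hs : Sig A B a b) (hx : x ∈ A) :
    nEl a b * x * (nEl a b)⁻¹ ∈ B := by
  have := conj_mem_conjBy (nEl a b) hx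
  rwa [hs.n_conj_A h] at this

theorem Sig.symm (h : SpPair A B) (hs : Sig A B a b) : Sig B A b a := by
  refine ⟨hs.2.2.1, hs.2.2.2.1, hs.1, hs.2.1, ?_⟩
  have hn := hs.n_conj_A h
  rw [nEl, hs.braid h, ← conjBy_conjBy, conjBy_eq_iff, mul_inv_rev, ← conjBy_conjBy,
    conjBy_mem_self (inv_mem hs.2.2.1)] at hn
  exact hn.symm

theorem exists_sig' (h : SpPair A B) (hb : b ∈ B) (hb1 : b ≠ 1) : ∃ a, Sig A B a b := by
  obtain ⟨a, ha⟩ := exists_sig h.symm hb hb1
  exact ⟨a, ha.symm h.symm⟩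

theorem Sig.inv (h : SpPair A B) (hs : Sig A B a b) : Sig A B a⁻¹ b⁻¹ := by
  refine ⟨inv_mem hs.1, by simpa using hs.2.1, inv_mem hs.2.2.1, by simpa using hs.2.2.2.1, ?_⟩
  rw [inv_inv]
  exact (hs.symm h).2.2.2.2.symm

theorem Sig.pow_eq_one (h : SpPair A B) (hs : Sig A B a b) {k : ℕ} : a ^ k = 1 ↔ b ^ k = 1 := by
  rw [← hs.n_left h, conj_pow, conj_eq_one_iff]

/-- The basic identity. -/
theorem Sig.step (h : SpPair A B) (hs : Sig A B a s) (hx : x ∈ A) (hx1 : x ≠ 1)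
    (ht : Sig A B (a * x) t) :
    ∃ z, Sig A B z (t * s⁻¹) ∧ Sig A B (a * z) (nEl a s * x * (nEl a s)⁻¹)⁻¹ := by
  have hne : t * s⁻¹ ≠ 1 := by
    intro he
    rw [mul_inv_eq_one] at he
    subst he
    exact hx1 (mul_left_cancel ((ht.left_unique h hs).trans (mul_one a).symm))
  obtain ⟨z, hz⟩ := exists_sig' h (mul_mem ht.2.2.1 (inv_mem hs.2.2.1)) hne
  refine ⟨z, hz, ?_⟩
  set n := nEl a s with hn
  have hBn : conjBy A n⁻¹ = B := (conjBy_eq_iff.1 hs.n_conj_B).symm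
  have e : conjBy A (n * x * n⁻¹) = conjBy B (a * z) := by
    calc conjBy A (n * x * n⁻¹) = conjBy B (n * x) := by
          conv_rhs => rw [← hBn, conjBy_conjBy]
      _ = conjBy (conjBy B (a * x)) (a * s) := by
          rw [conjBy_conjBy, hn, nEl, mul_assoc]
      _ = conjBy (conjBy A t⁻¹) (a * s) := by rw [ht.2.2.2.2]
      _ = conjBy (conjBy A (t * s⁻¹)⁻¹) a := by
          rw [conjBy_conjBy, conjBy_conjBy]; congr 1; group
      _ = conjBy B (a * z) := by rw [hz.2.2.2.2, conjBy_conjBy]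
  have hmem : n * x * n⁻¹ ∈ B := hs.n_mem_B h hx
  refine ⟨mul_mem hs.1 hz.1, fun h1 => ?_, inv_mem hmem, ?_, by rw [inv_inv]; exact e⟩
  · rw [h1, conjBy_one, conjBy_eq_iff, conjBy_mem_self (inv_mem hmem)] at e
    exact h.rankOne.ne e
  · rw [inv_ne_one, Ne, conj_eq_one_iff]; exact hx1

/-- The braid partner of a power. -/
theorem pow_sig (k : ℕ) (hk : 1 ≤ k) : ∀ {A B : Subgroup G}, SpPair A B → ∀ {a s t : G},
    Sig A B a s → Sig A B (a ^ k) t → t ^ k = s := by
  induction k, hk using Nat.le_induction with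
  | base =>
    intro A B h a s t hs ht
    rw [pow_one] at ht ⊢
    exact ht.right_unique h hs
  | succ k hk ih =>
    intro A B h a s t hs ht
    by_cases hak : a ^ k = 1
    · have hts : t = s := by
        rw [pow_succ, hak, one_mul] at ht
        exact ht.right_unique h hs
      rw [hts, pow_succ, (hs.pow_eq_one h).1 hak, one_mul]
    · rw [pow_succ'] at ht
      obtain ⟨z, hz, haz⟩ := hs.step h (pow_mem hs.1 k) hak ht
      rw [← conj_pow, hs.n_left h, ← inv_pow] at haz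
      have h1 : (a * z) ^ k = a⁻¹ := ih h.symm ((hs.inv h).symm h) (haz.symm h)
      have h2 : z ^ k = (a * a ^ k)⁻¹ := by
        rw [(h.commA hs.1 hz.1).mul_pow] at h1
        calc z ^ k = (a ^ k)⁻¹ * (a ^ k * z ^ k) := by group
          _ = (a * a ^ k)⁻¹ := by rw [h1, ← mul_inv_rev]
      have h3 := ih h hz (t := t⁻¹) (by rw [h2]; exact ht.inv h)
      rw [inv_pow] at h3
      calc t ^ (k + 1) = (t ^ k) * t := pow_succ t k
        _ = (t * s⁻¹)⁻¹ * t := by rw [← h3, inv_inv]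
        _ = s := by group

/-- A root of a braid partner power. -/
theorem sig_of_pow (h : SpPair A B) {k : ℕ} (hk : 1 ≤ k) (hs : Sig A B a s)
    (hx : Sig A B x (s ^ k)) : x ^ k = a :=
  pow_sig k hk h.symm (hs.symm h) (hx.symm h)

theorem exists_root (h : SpPair A B) {k : ℕ} (hk : 1 ≤ k) (ha : a ∈ A) (hak : a ^ k ≠ 1) :
    ∃ c ∈ A, c ^ k = a := by
  have ha1 : a ≠ 1 := fun h1 => hak (by rw [h1, one_pow])
  obtain ⟨s, hs⟩ := exists_sig h ha ha1
  obtain ⟨c, hc⟩ := exists_sig' h (pow_mem hs.2.2.1 k) fun h1 => hak ((hs.pow_eq_one h).2 h1)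
  exact ⟨c, hc.1, sig_of_pow h hk hs hc⟩

/-- Torsion forces exponent a prime. -/
theorem pow_prime_eq_one (h : SpPair A B) {p : ℕ} (hp : 1 ≤ p) (ha : a ∈ A) (ha1 : a ≠ 1)
    (hap : a ^ p = 1) : ∀ c ∈ A, c ^ p = 1 := by
  intro c hc
  by_contra hcp
  have hc1 : c ≠ 1 := fun h1 => hcp (by rw [h1, one_pow])
  have hpow : (a * c) ^ p = c ^ p := by rw [(h.commA ha hc).mul_pow, hap, one_mul]
  have hac1 : a * c ≠ 1 := fun h1 => hcp (by rw [← hpow, h1, one_pow])
  obtain ⟨t, ht⟩ := exists_sig h (pow_mem hc p) hcp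
  obtain ⟨u, hu⟩ := exists_sig h hc hc1
  obtain ⟨v, hv⟩ := exists_sig h (mul_mem ha hc) hac1
  have h1 := pow_sig p hp h hu ht
  have h2 := pow_sig p hp h hv (by rw [hpow]; exact ht)
  rw [← h1.symm.trans h2] at hv
  exact ha1 (mul_eq_right.1 (hv.left_unique h hu))

theorem torsion_dichotomy (h : SpPair A B) :
    (∃ p : ℕ, p.Prime ∧ IsElementaryAbelian p A) ∨
    ((∀ a ∈ A, a ≠ 1 → ¬ IsOfFinOrder a) ∧ ∀ a ∈ A, ∀ n : ℕ, 0 < n → ∃ c ∈ A, c ^ n = a) := by
  by_cases hfin : ∀ a ∈ A, a ≠ 1 → ¬ IsOfFinOrder a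
  · refine Or.inr ⟨hfin, fun a ha n hn => ?_⟩
    by_cases ha1 : a = 1
    · exact ⟨1, one_mem A, by rw [one_pow, ha1]⟩
    · exact exists_root h hn ha fun hp => hfin a ha ha1 (isOfFinOrder_iff_pow_eq_one.2 ⟨n, hn, hp⟩)
  · push Not at hfin
    obtain ⟨a, ha, ha1, hfo⟩ := hfin
    have ho : orderOf a ≠ 1 := by rwa [Ne, orderOf_eq_one_iff]
    obtain ⟨p, hp, hpd⟩ := Nat.exists_prime_and_dvd ho
    refine Or.inl ⟨p, hp, h.abel.1, ?_⟩
    obtain ⟨m, hm⟩ := hpd
    have hpos := hfo.orderOf_pos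
    have hm0 : 0 < m := pos_of_mul_pos_right (hm ▸ hpos) (Nat.zero_le p)
    refine pow_prime_eq_one h hp.pos (pow_mem ha m) (fun h1 => ?_) (by
      rw [← pow_mul, mul_comm, ← hm, pow_orderOf_eq_one])
    have h2 := Nat.le_of_dvd hm0 (orderOf_dvd_of_pow_eq_one h1)
    rw [hm] at h2
    nlinarith [hp.two_le]

/-- The commutator subgroup of `A ⊔ B` is everything as soon as it meets `A`. -/
theorem le_commutator (h : SpPair A B) {m : G} (hm : m ∈ A) (hm1 : m ≠ 1)
    (hmD : m ∈ ⁅A ⊔ B, A ⊔ B⁆) : A ⊔ B ≤ ⁅A ⊔ B, A ⊔ B⁆ := by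
  set X := A ⊔ B with hX
  set D := ⁅X, X⁆ with hD
  have hAX : A ≤ X := le_sup_left
  have hBX : B ≤ X := le_sup_right
  have hnorm : ∀ g ∈ X, ∀ d ∈ D, g * d * g⁻¹ ∈ D := by
    intro g hg d hd
    have h1 : conjBy D g ≤ D := by
      rw [hD, conjBy_commutator]
      exact Subgroup.commutator_mono (conjBy_le_of_mem le_rfl hg) (conjBy_le_of_mem le_rfl hg)
    exact h1 (conj_mem_conjBy g hd)
  have hiff : ∀ {u v : G}, Sig A B u v → v * u⁻¹ ∈ D := by
    intro u v huv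
    have := Subgroup.commutator_mem_commutator huv.n_mem (hAX huv.1)
    rwa [commutatorElement_def, huv.n_left h] at this
  have hA : A ≤ D := by
    intro a ha
    by_contra haD
    have ha1 : a ≠ 1 := fun h1 => haD (h1 ▸ one_mem D)
    have ham : a * m ≠ 1 := fun h1 => haD (by rw [eq_inv_of_mul_eq_one_left h1]; exact inv_mem hmD)
    obtain ⟨s, hs⟩ := exists_sig h ha ha1
    obtain ⟨t, ht⟩ := exists_sig h (mul_mem ha hm) ham
    obtain ⟨z, hz, haz⟩ := hs.step h hm hm1 ht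
    have h1 : (nEl a s * m * (nEl a s)⁻¹)⁻¹ ∈ D := inv_mem (hnorm _ hs.n_mem _ hmD)
    have h2 : a * z ∈ D := by
      have := mul_mem (inv_mem (hiff haz)) h1
      simpa [mul_assoc] using this
    have h3 : t * s⁻¹ ∈ D := by
      have e : t * s⁻¹ = (t * (a * m)⁻¹) * (a * m * a⁻¹) * (s * a⁻¹)⁻¹ := by group
      rw [e]
      exact mul_mem (mul_mem (hiff ht) (hnorm a (hAX ha) m hmD)) (inv_mem (hiff hs))
    have h4 : z ∈ D := by
      have := mul_mem (inv_mem (hiff hz)) h3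
      simpa [mul_assoc] using this
    have h5 := mul_mem h2 (inv_mem h4)
    rw [mul_inv_cancel_right] at h5
    exact haD h5
  refine sup_le hA fun b hb => ?_
  by_cases hb1 : b = 1
  · exact hb1 ▸ one_mem D
  obtain ⟨a, ha⟩ := exists_sig' h hb hb1
  have := mul_mem (hiff ha) (hA ha.1)
  rwa [inv_mul_cancel_right] at this

/-- The element `n_c⁻¹ n_a` is diagonal. -/
theorem diag_mem (h : SpPair A B) {c q : G} (hs : Sig A B a s) (hc : Sig A B c q) :
    (nEl c q)⁻¹ * nEl a s ∈ rankOneDiagonal A B := by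
  refine Subgroup.mem_inf.2 ⟨Subgroup.mem_inf.2 ⟨mul_mem (inv_mem hc.n_mem) hs.n_mem,
    conjBy_eq_self_iff.1 ?_⟩, conjBy_eq_self_iff.1 ?_⟩
  · rw [← conjBy_conjBy, hs.n_conj_A h, conjBy_eq_iff, inv_inv, hc.n_conj_A h]
  · rw [← conjBy_conjBy, hs.n_conj_B, conjBy_eq_iff, inv_inv, hc.n_conj_B]

theorem cube_mem (h : SpPair A B) (ha : a ∈ A) (h2 : a ^ 2 ≠ 1) :
    a ^ 3 ∈ (⁅A, rankOneDiagonal A B⁆ : Subgroup G) := by
  obtain ⟨s, hs⟩ := exists_sig h ha fun h1 => h2 (by rw [h1, one_pow])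
  obtain ⟨q, hq⟩ := exists_sig h (pow_mem ha 2) h2
  have hq2 := pow_sig 2 (by norm_num) h hs hq
  set g := nEl (a ^ 2) q * nEl a s with hg
  have hgH : g ∈ rankOneDiagonal A B := by
    refine Subgroup.mem_inf.2 ⟨Subgroup.mem_inf.2 ⟨mul_mem hq.n_mem hs.n_mem,
      conjBy_eq_self_iff.1 ?_⟩, conjBy_eq_self_iff.1 ?_⟩
    · rw [← conjBy_conjBy, hs.n_conj_A h, hq.n_conj_B]
    · rw [← conjBy_conjBy, hs.n_conj_B, hq.n_conj_A h]
  have e : g * a * g⁻¹ = a ^ 4 := by
    calc g * a * g⁻¹ = nEl (a ^ 2) q * (nEl a s * a * (nEl a s)⁻¹) * (nEl (a ^ 2) q)⁻¹ := by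
          rw [hg]; group
      _ = (nEl (a ^ 2) q * q * (nEl (a ^ 2) q)⁻¹) ^ 2 := by rw [hs.n_left h, conj_pow, hq2]
      _ = a ^ 4 := by rw [hq.n_right h, ← pow_mul]
  have := Subgroup.commutator_mem_commutator hgH ha
  rw [commutatorElement_def, e, Subgroup.commutator_comm] at this
  rwa [show a ^ 4 * a⁻¹ = a ^ 3 by group] at this

/-- In exponent two or three the diagonal subgroup moves more than three elements. -/
theorem commutator_large (h : SpPair A B) {p : ℕ} (hp : p = 2 ∨ p = 3)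
    (hexp : ∀ a ∈ A, a ^ p = 1) (hbig : ∀ m ∈ A, ∃ a ∈ A, a ≠ 1 ∧ a ≠ m ∧ a ≠ m⁻¹)
    (hsmall : ∀ m ∈ (⁅A, rankOneDiagonal A B⁆ : Subgroup G), m ≠ 1 →
      ∀ u ∈ (⁅A, rankOneDiagonal A B⁆ : Subgroup G), u = 1 ∨ u = m ∨ u = m⁻¹) : False := by
  set M := (⁅A, rankOneDiagonal A B⁆ : Subgroup G) with hM
  obtain ⟨m, hmA, hm1, hcov⟩ : ∃ m ∈ A, m ≠ 1 ∧ ∀ u ∈ M, u = 1 ∨ u = m ∨ u = m⁻¹ := by
    by_cases hbot : M = ⊥
    · obtain ⟨m, hm, hm1⟩ := Pair.exists_ne_one (Pair.ne_bot_left h.rankOne)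
      exact ⟨m, hm, hm1, fun u hu => Or.inl (by rwa [hbot, Subgroup.mem_bot] at hu)⟩
    · obtain ⟨m, hm, hm1⟩ := Pair.exists_ne_one hbot
      refine ⟨m, ?_, hm1, hsmall m hm hm1⟩
      have hle : M ≤ A := by
        rw [hM, Subgroup.commutator_le]
        intro u hu g hg
        rw [commutatorElement_def, mul_assoc, mul_assoc]
        refine mul_mem hu ?_
        have hn : conjBy A g = A := conjBy_eq_self_iff.2 hg.1.2
        have := conj_mem_conjBy g (inv_mem hu)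
        rw [hn, mul_assoc] at this
        exact this
      exact hle hm
  obtain ⟨μ, hμ⟩ := exists_sig h hmA hm1
  have hmp := hexp m hmA
  have hsign : ∀ {a s : G}, Sig A B a s →
      nEl a s * m * (nEl a s)⁻¹ = μ ∨ nEl a s * m * (nEl a s)⁻¹ = μ⁻¹ := by
    intro a s hs
    set g := (nEl m μ)⁻¹ * nEl a s with hg
    have hgH : g ∈ rankOneDiagonal A B := diag_mem h hs hμ
    set u := g * m * g⁻¹ with hu
    have hu1 : u ≠ 1 := by rw [hu, Ne, conj_eq_one_iff]; exact hm1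
    have hum : u * m⁻¹ ∈ M := by
      have := Subgroup.commutator_mem_commutator hgH hmA
      rwa [Subgroup.commutator_comm, commutatorElement_def] at this
    have e : nEl a s * m * (nEl a s)⁻¹ = nEl m μ * u * (nEl m μ)⁻¹ := by rw [hu, hg]; group
    have hcase : u = m ∨ u = m⁻¹ := by
      rcases hcov _ hum with e1 | e1 | e1
      · exact Or.inl (mul_inv_eq_one.1 e1)
      · rw [mul_inv_eq_iff_eq_mul] at e1
        rcases hp with rfl | rfl
        · exact absurd (by rw [e1, ← pow_two, hmp]) hu1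
        · refine Or.inr (e1.trans (eq_inv_of_mul_eq_one_left ?_))
          rw [← hmp, pow_succ, pow_two]
      · exact absurd (by simpa [mul_inv_eq_iff_eq_mul] using e1) hu1
    rcases hcase with hu' | hu' <;> rw [e, hu']
    · exact Or.inl (hμ.n_left h)
    · refine Or.inr ?_
      rw [← conj_inv, hμ.n_left h]
  obtain ⟨a, haA, ha1, ham, ham'⟩ := hbig m hmA
  -- the inverting case is forced
  have hneg : ∀ {a s t : G}, Sig A B a s → a ≠ m → Sig A B (a * m) t →
      Sig A B (m * a⁻¹) (t * s⁻¹) := by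
    intro a s t hs ha' ht
    obtain ⟨z, hz, haz⟩ := hs.step h hmA hm1 ht
    rcases hsign hs with e | e <;> rw [e] at haz
    · exfalso
      have h1 := haz.left_unique h (hμ.inv h)
      have h2 : z = (a * m)⁻¹ := by
        rw [(h.commA hs.1 hmA).eq, mul_inv_rev, ← h1, ← mul_assoc, inv_mul_cancel, one_mul]
      rw [h2] at hz
      have h3 := hz.right_unique h (ht.inv h)
      have h4 : s = t ^ 2 := by
        calc s = (t * s⁻¹)⁻¹ * t := by group
          _ = t ^ 2 := by rw [h3, inv_inv, pow_two]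
      have h5 : (a : G) ^ 2 = a * m := sig_of_pow h (by norm_num) ht (h4 ▸ hs)
      rw [pow_two] at h5
      exact ha' (mul_left_cancel h5)
    · rw [inv_inv] at haz
      have h1 := haz.left_unique h hμ
      have h2 : z = m * a⁻¹ := by
        rw [eq_mul_inv_iff_mul_eq, (h.commA hz.1 hs.1).eq, h1]
      rwa [h2] at hz
  have ham1 : a * m ≠ 1 := fun h1 => ham' (eq_inv_of_mul_eq_one_left h1)
  have hamm : a * m ≠ m := fun h1 => ha1 (mul_eq_right.1 h1)
  obtain ⟨s, hs⟩ := exists_sig h haA ha1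
  obtain ⟨t, ht⟩ := exists_sig h (mul_mem haA hmA) ham1
  have ham2 : a * m * m ≠ 1 := by
    rcases hp with rfl | rfl
    · rwa [mul_assoc, ← pow_two, hmp, mul_one]
    · intro h1
      refine ham ?_
      calc a = a * m ^ 3 := by rw [hmp, mul_one]
        _ = a * m * m * m := by simp only [pow_succ, pow_zero, one_mul, mul_assoc]
        _ = m := by rw [h1, one_mul]
  obtain ⟨r, hr⟩ := exists_sig h (mul_mem (mul_mem haA hmA) hmA) ham2
  have h1 := hneg hs ham ht
  have h2 := hneg ht hamm hr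
  rw [show m * (a * m)⁻¹ = a⁻¹ by group] at h2
  have h3 := h2.right_unique h (hs.inv h)
  have h4 : r = t * s⁻¹ := by
    rw [mul_inv_eq_iff_eq_mul] at h3
    rw [h3]
    exact (h.symm.commA (inv_mem hs.2.2.1) ht.2.2.1).eq
  rw [h4] at hr
  have h5 := hr.left_unique h h1
  have h6 : a * a * m = 1 := by
    calc a * a * m = a * (a * m * m) * m⁻¹ := by group
      _ = a * (m * a⁻¹) * m⁻¹ := by rw [h5]
      _ = 1 := by rw [← mul_assoc, (h.commA haA hmA).eq]; group
  have hap := hexp a haA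
  rcases hp with rfl | rfl
  · rw [← pow_two, hap, one_mul] at h6; exact hm1 h6
  · refine ham ?_
    calc a = a * (a * a * m) := by rw [h6, mul_one]
      _ = a ^ 3 * m := by simp only [pow_succ, pow_zero, one_mul, mul_assoc]
      _ = m := by rw [hap, one_mul]

end Cfsg.Agent.RootSub.Spc
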