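import Cfsg.Agent.RootSub.Special

/-!
# A special rank one group with large abelian unipotent subgroups is perfect
-/

set_option autoImplicit false

namespace Cfsg.Agent.RootSub.Spc

open Cfsg
open scoped commutatorElement

variable {G : Type*} [Group G] {A B : Subgroup G}

/-- A group with more than three elements is not covered by `1`, `m`, `m⁻¹`. -/
theorem exists_outside {H : Subgroup G} (hH : 3 < ENat.card H) (m : G) :
    ∃ a ∈ H, a ≠ 1 ∧ a ≠ m ∧ a ≠ m⁻¹ := by
  by_contra hno
  push Not at hno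
  have hsub : (H : Set G) ⊆ {1, m, m⁻¹} := fun x hx => by
    by_cases h1 : x = 1
    · exact Or.inl h1
    by_cases h2 : x = m
    · exact Or.inr (Or.inl h2)
    · exact Or.inr (Or.inr (hno x hx h1 h2))
  refine absurd hH (not_lt.2 ?_)
  calc ENat.card H = (H : Set G).encard := ENat.card_coe_set_eq (H : Set G)
    _ ≤ ({1, m, m⁻¹} : Set G).encard := Set.encard_le_encard hsub
    _ ≤ 3 := by
      refine (Set.encard_insert_le _ _).trans ?_
      have : ({m, m⁻¹} : Set G).encard ≤ 2 :=
        (Set.encard_insert_le _ _).trans (by rw [Set.encard_singleton]; norm_num)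
      calc ({m, m⁻¹} : Set G).encard + 1 ≤ 2 + 1 := by gcongr
        _ = 3 := by norm_num

/-- The diagonal subgroup acts nontrivially on `A`. -/
theorem commutator_diag_ne_bot (h : SpPair A B) (hbig : 3 < ENat.card A) :
    (⁅A, rankOneDiagonal A B⁆ : Subgroup G) ≠ ⊥ := by
  intro hbot
  have hroots : (∀ a ∈ A, a ≠ 1 → a ^ 2 ≠ 1 ∧ a ^ 3 ≠ 1) → False := by
    intro hord
    obtain ⟨a, ha, ha1⟩ := Pair.exists_ne_one (Pair.ne_bot_left h.rankOne)
    have := cube_mem h ha (hord a ha ha1).1
    rw [hbot, Subgroup.mem_bot] at this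
    exact (hord a ha ha1).2 this
  rcases torsion_dichotomy h with ⟨p, hpr, -, hexp⟩ | ⟨htf, -⟩
  · by_cases h23 : p = 2 ∨ p = 3
    · exact commutator_large h h23 hexp (fun m _ => exists_outside hbig m) fun m _ _ u hu => by
        rw [hbot, Subgroup.mem_bot] at hu
        exact Or.inl hu
    · push Not at h23
      haveI : Fact p.Prime := ⟨hpr⟩
      refine hroots fun a ha ha1 => ⟨fun e => ?_, fun e => ?_⟩
      · have h'' := orderOf_dvd_of_pow_eq_one e
        rw [orderOf_eq_prime (hexp a ha) ha1] at h''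
        exact h23.1 ((Nat.prime_dvd_prime_iff_eq hpr Nat.prime_two).1 h'')
      · have h'' := orderOf_dvd_of_pow_eq_one e
        rw [orderOf_eq_prime (hexp a ha) ha1] at h''
        exact h23.2 ((Nat.prime_dvd_prime_iff_eq hpr Nat.prime_three).1 h'')
  · exact hroots fun a ha ha1 =>
      ⟨fun e => htf a ha ha1 (isOfFinOrder_iff_pow_eq_one.2 ⟨2, by norm_num, e⟩),
       fun e => htf a ha ha1 (isOfFinOrder_iff_pow_eq_one.2 ⟨3, by norm_num, e⟩)⟩

/-- The rank one group is perfect. -/
theorem le_commutator_of_large (h : SpPair A B) (hbig : 3 < ENat.card A) :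
    A ⊔ B ≤ ⁅A ⊔ B, A ⊔ B⁆ := by
  obtain ⟨m, hm, hm1⟩ := Pair.exists_ne_one (commutator_diag_ne_bot h hbig)
  have hMA : (⁅A, rankOneDiagonal A B⁆ : Subgroup G) ≤ A := by
    rw [Subgroup.commutator_le]
    intro u hu g hg
    rw [commutatorElement_def, mul_assoc, mul_assoc]
    refine mul_mem hu ?_
    have hn : conjBy A g = A := conjBy_eq_self_iff.2 hg.1.2
    have := conj_mem_conjBy g (inv_mem hu)
    rw [hn, mul_assoc] at this
    exact this
  exact le_commutator h (hMA hm) hm1
    (Subgroup.commutator_mono le_sup_left (inf_le_left.trans inf_le_left) hm)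

end Cfsg.Agent.RootSub.Spc
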